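import Mathlib
import Cfsg.Agent.H7.Jordan

/-!
Blichfeldt's theorem on elements whose eigenvalues lie within sixty degrees of one of them.
-/

set_option autoImplicit false

namespace Cfsg.Agent.H8.Bl

open Cfsg
open scoped ComplexConjugate InnerProductSpace

section Abs

variable {G V : Type*} [Group G] [Finite G] [NormedAddCommGroup V] [InnerProductSpace ℂ V]
  (ρ : G →* (V →ₗ[ℂ] V)) (g : G) (α : ℂ)

/-- the conjugates of `g` having `v` as an eigenvector for `α` -/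
def T (v : V) : Set G := {t | IsConj g t ∧ ρ t v = α • v}

variable {ρ g α}

omit [Finite G] in
theorem app_mul (a b : G) (v : V) : ρ (a * b) v = ρ a (ρ b v) := by rw [map_mul]; rfl

omit [Finite G] in
theorem app_inv (a : G) (v : V) : ρ a (ρ a⁻¹ v) = v := by rw [← app_mul]; simp

omit [Finite G] in
theorem mem_T_app {h t : G} {v : V} : t ∈ T ρ g α (ρ h v) ↔ h⁻¹ * t * h ∈ T ρ g α v := by
  have e : IsConj g (h⁻¹ * t * h) ↔ IsConj g t :=
    ⟨fun a => a.trans (isConj_iff.2 ⟨h, by group⟩), fun a => a.trans (isConj_iff.2 ⟨h⁻¹, by group⟩)⟩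
  simp only [T, Set.mem_ofPred_eq, e, app_mul]
  refine and_congr_right fun _ => ⟨fun a => ?_, fun a => ?_⟩
  · rw [a, map_smul, ← app_mul]; simp
  · have := congrArg (ρ h) a
    rwa [app_inv, map_smul] at this

theorem ncard_T_app (h : G) (v : V) : (T ρ g α (ρ h v)).ncard = (T ρ g α v).ncard := by
  refine Set.ncard_congr (fun t _ => h⁻¹ * t * h) (fun t ht => mem_T_app.1 ht)
    (fun a b _ _ e => by simpa using e) (fun t ht => ⟨h * t * h⁻¹, mem_T_app.2 ?_, by group⟩)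
  simpa [mul_assoc] using ht

omit [Finite G] in
theorem T_app_congr (h : G) {v w : V} (e : T ρ g α v = T ρ g α w) :
    T ρ g α (ρ h v) = T ρ g α (ρ h w) := by
  ext t; rw [mem_T_app, mem_T_app, e]

omit [Finite G] in
theorem T_smul {c : ℂ} (hc : c ≠ 0) (v : V) : T ρ g α (c • v) = T ρ g α v := by
  ext t
  simp only [T, Set.mem_ofPred_eq, map_smul, smul_comm α c]
  exact and_congr_right fun _ => (smul_right_injective V hc).eq_iff

variable (hρ : ∀ a x y, ⟪ρ a x, ρ a y⟫_ℂ = ⟪x, y⟫_ℂ) (hα : ‖α‖ = 1)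
include hρ

omit [Finite G] in
theorem norm_app (a : G) (x : V) : ‖ρ a x‖ = ‖x‖ := by
  have := hρ a x x
  rw [inner_self_eq_norm_sq_to_K, inner_self_eq_norm_sq_to_K] at this
  have h2 : ‖ρ a x‖ ^ 2 = ‖x‖ ^ 2 := by exact_mod_cast this
  exact (pow_left_inj₀ (norm_nonneg _) (norm_nonneg _) two_ne_zero).1 h2

include hα

omit [Finite G] in
theorem half (hn : ∀ y, ‖ρ g y - α • y‖ ≤ ‖y‖) {t : G} (ht : IsConj g t) (y : V) :
    ‖y‖ ^ 2 / 2 ≤ (⟪α • y, ρ t y⟫_ℂ).re := by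
  obtain ⟨h, rfl⟩ := isConj_iff.1 ht
  have h1 : ‖ρ (h * g * h⁻¹) y - α • y‖ ≤ ‖y‖ := by
    have := hn (ρ h⁻¹ y)
    rw [norm_app hρ, ← norm_app hρ h, map_sub, map_smul, app_inv] at this
    rwa [app_mul, app_mul]
  have h2 := @norm_sub_sq ℂ V _ _ _ (ρ (h * g * h⁻¹) y) (α • y)
  rw [norm_app hρ, norm_smul, hα, one_mul, ← inner_conj_symm] at h2
  have h3 : ‖ρ (h * g * h⁻¹) y - α • y‖ ^ 2 ≤ ‖y‖ ^ 2 := by gcongr
  simp only [RCLike.re_to_complex, Complex.conj_re] at h2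
  linarith

omit [Finite G] in
theorem inner_eig {t : G} {u : V} (hu : ρ t u = α • u) (w : V) :
    ⟪u, ρ t w⟫_ℂ = α * ⟪u, w⟫_ℂ := by
  have h1 := hρ t u w
  rw [hu, inner_smul_left] at h1
  have h2 : α * conj α = 1 := by rw [Complex.mul_conj, Complex.normSq_eq_norm_sq, hα]; simp
  rw [← h1, ← mul_assoc, h2, one_mul]

theorem mem_of_max {w : V} (hw : ∀ y, y ≠ 0 → (T ρ g α y).ncard ≤ (T ρ g α w).ncard) {t : G}
    (ht : IsConj g t) (e : T ρ g α (ρ t w) = T ρ g α w) {u : V} (hu : ρ t u = α • u)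
    (h0 : ⟪u, w⟫_ℂ ≠ 0) : t ∈ T ρ g α w := by
  have hα0 : α ≠ 0 := by rintro rfl; simp at hα
  have hu0 : u ≠ 0 := by rintro rfl; simp at h0
  have hk : ∀ k : ℕ, ρ (t ^ k) u = α ^ k • u := fun k => by
    induction k with
    | zero => simp
    | succ k ih => rw [pow_succ', app_mul, ih, map_smul, hu, smul_smul, ← pow_succ]
  have ho : α ^ orderOf t = 1 := by
    have := hk (orderOf t)
    rw [pow_orderOf_eq_one, map_one] at this
    exact (smul_left_injective ℂ hu0 (this.symm.trans (one_smul ℂ u).symm))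
  have ek : ∀ k : ℕ, T ρ g α (ρ (t ^ k) w) = T ρ g α w := fun k => by
    induction k with
    | zero => simp
    | succ k ih => rw [pow_succ', app_mul, T_app_congr t ih, e]
  set w' := ∑ k ∈ Finset.range (orderOf t), (α ^ k)⁻¹ • ρ (t ^ k) w with hw'
  have h1 : ρ t w' = α • w' := by
    have := Finset.sum_range_succ_comm (fun k => (α ^ k)⁻¹ • ρ (t ^ k) w) (orderOf t)
    rw [Finset.sum_range_succ', ho, pow_orderOf_eq_one, pow_zero, pow_zero, add_comm,
      add_right_inj, ← hw'] at this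
    conv_rhs => rw [← this]
    rw [hw', map_sum, Finset.smul_sum]
    refine Finset.sum_congr rfl fun k _ => ?_
    rw [map_smul, ← app_mul, ← pow_succ', smul_smul]
    congr 1
    rw [pow_succ]
    field_simp
  have h2 : ⟪u, w'⟫_ℂ = orderOf t * ⟪u, w⟫_ℂ := by
    rw [hw', inner_sum, Finset.sum_congr rfl (g := fun _ => ⟪u, w⟫_ℂ) fun k _ => by
      rw [inner_smul_right, inner_eig hρ (by rw [norm_pow, hα, one_pow]) (hk k), ← mul_assoc,
        inv_mul_cancel₀ (pow_ne_zero k hα0), one_mul]]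
    simp
  have h3 : w' ≠ 0 := fun h => by
    rw [h, inner_zero_right] at h2
    exact mul_ne_zero (Nat.cast_ne_zero.2 (orderOf_pos t).ne') h0 h2.symm
  have h4 : T ρ g α w ⊆ T ρ g α w' := fun s hs => ⟨hs.1, by
    rw [hw', map_sum, Finset.smul_sum]
    refine Finset.sum_congr rfl fun k _ => ?_
    rw [map_smul, (show s ∈ T ρ g α (ρ (t ^ k) w) from (ek k).symm ▸ hs).2, smul_comm]⟩
  rw [Set.eq_of_subset_of_ncard_le h4 (hw w' h3)]
  exact ⟨ht, h1⟩

omit [Finite G] in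
theorem angle (hn : ∀ y, ‖ρ g y - α • y‖ ≤ ‖y‖) {t : G} (ht : IsConj g t) {u w : V}
    (hu : ρ t u = α • u) (h1 : ‖u‖ = 1) (h2 : ‖w‖ = 1) :
    (1 + ‖⟪u, w⟫_ℂ‖ ^ 2) / 2 ≤ ‖⟪w, ρ t w⟫_ℂ‖ := by
  set a := ⟪u, w⟫_ℂ with ha
  set y := w - a • u with hy
  have huu : ⟪u, u⟫_ℂ = 1 := by rw [inner_self_eq_norm_sq_to_K, h1]; simp
  have huy : ⟪u, y⟫_ℂ = 0 := by rw [hy, inner_sub_right, inner_smul_right, huu]; simp [ha]
  have hyu : ⟪y, u⟫_ℂ = 0 := by rw [← inner_conj_symm, huy, map_zero]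
  have hw : w = a • u + y := by rw [hy]; abel
  have h3 : ‖y‖ ^ 2 = 1 - ‖a‖ ^ 2 := by
    have := @norm_add_sq ℂ V _ _ _ (a • u) y
    rw [← hw, h2, inner_smul_left, huy, norm_smul, h1] at this
    simp at this
    linarith
  have hαα : conj α * α = 1 := by
    rw [mul_comm, Complex.mul_conj, Complex.normSq_eq_norm_sq, hα]; simp
  have h4 : ⟪α • w, ρ t w⟫_ℂ = (‖a‖ ^ 2 : ℝ) + ⟪α • y, ρ t y⟫_ℂ := by
    have e : conj a * a = (‖a‖ ^ 2 : ℝ) := by
      rw [mul_comm, Complex.mul_conj, Complex.normSq_eq_norm_sq]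
    conv_lhs => rw [hw]
    simp only [map_add, map_smul, hu, inner_smul_left, inner_add_left, inner_add_right,
      inner_smul_right, huu, hyu, inner_eig hρ hα hu, huy]
    linear_combination (conj a * a) * hαα + e
  have h5 := half hρ hα hn ht y
  have h6 : (⟪α • w, ρ t w⟫_ℂ).re ≤ ‖⟪w, ρ t w⟫_ℂ‖ := by
    refine (Complex.re_le_norm _).trans_eq ?_
    rw [inner_smul_left, norm_mul, Complex.norm_conj, hα, one_mul]
  rw [h4, Complex.add_re, Complex.ofReal_re] at h6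
  linarith

theorem blich (hn : ∀ y, ‖ρ g y - α • y‖ ≤ ‖y‖) {v₀ : V} (h0 : v₀ ≠ 0) (hv : ρ g v₀ = α • v₀)
    (hG : Subgroup.normalClosure {g} = ⊤) : ∃ v, v ≠ 0 ∧ ∀ h, ρ (h * g * h⁻¹) v = α • v := by
  classical
  obtain ⟨v₁, hv₁, hm₁⟩ : ∃ v₁ : V, v₁ ≠ 0 ∧ ∀ y, y ≠ 0 →
      (T ρ g α y).ncard ≤ (T ρ g α v₁).ncard := by
    obtain ⟨_, ⟨v₁, h1, rfl⟩, h2⟩ := Set.exists_max_image (T ρ g α '' {y : V | y ≠ 0}) Set.ncard
      (Set.toFinite _) ⟨_, v₀, h0, rfl⟩
    exact ⟨v₁, h1, fun y hy => h2 _ ⟨y, hy, rfl⟩⟩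
  set v : V := ((‖v₁‖ : ℂ)⁻¹) • v₁ with hvd
  have hc : ((‖v₁‖ : ℂ)⁻¹) ≠ 0 := inv_ne_zero (by simpa using hv₁)
  have hv1 : ‖v‖ = 1 := norm_smul_inv_norm hv₁
  have hm : ∀ h y, y ≠ 0 → (T ρ g α y).ncard ≤ (T ρ g α (ρ h v)).ncard := fun h y hy => by
    rw [ncard_T_app, hvd, T_smul hc]; exact hm₁ y hy
  have hall : ∀ h, T ρ g α (ρ h v) = T ρ g α v := by
    by_contra hcon
    push Not at hcon
    obtain ⟨h₀, hh₀⟩ := hcon
    obtain ⟨⟨a, b⟩, hab, hmax⟩ := Set.exists_max_image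
      {q : G × G | T ρ g α (ρ q.1 v) ≠ T ρ g α (ρ q.2 v)} (fun q => ‖⟪ρ q.1 v, ρ q.2 v⟫_ℂ‖)
      (Set.toFinite _) ⟨(h₀, 1), by simpa using hh₀⟩
    simp only [Set.mem_ofPred_eq] at hab hmax
    by_cases hz : ⟪ρ a v, ρ b v⟫_ℂ = 0
    · let S : Subgroup G :=
        { carrier := {h | T ρ g α (ρ h v) = T ρ g α v}
          one_mem' := by simp
          mul_mem' := fun {x y} hx hy => by
            change T ρ g α (ρ (x * y) v) = _
            rw [app_mul, T_app_congr x hy, hx]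
          inv_mem' := fun {x} hx => by
            change T ρ g α (ρ x⁻¹ v) = _
            rw [← T_app_congr x⁻¹ hx, ← app_mul]; simp }
      have : Subgroup.normalClosure {g} ≤ S := by
        refine (Subgroup.closure_le S).2 fun t ht => ?_
        obtain ⟨g', hg', ht⟩ := Group.mem_conjugatesOfSet_iff.1 ht
        rw [Set.mem_singleton_iff.1 hg'] at ht
        change T ρ g α (ρ t v) = T ρ g α v
        by_contra hne
        have h1 := hmax (1, t) (fun e => hne (by simpa using e.symm))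
        have h2 := half hρ hα hn ht v
        simp only [hz, norm_zero, norm_le_zero_iff, map_one, Module.End.one_apply] at h1
        rw [inner_smul_left, h1, hv1] at h2
        norm_num at h2
      exact hh₀ (this (hG ▸ Subgroup.mem_top h₀))
    · have hu1 : ‖ρ a v‖ = 1 := by rw [norm_app hρ, hv1]
      have hw1 : ‖ρ b v‖ = 1 := by rw [norm_app hρ, hv1]
      have hlt : ‖⟪ρ a v, ρ b v⟫_ℂ‖ ≠ 1 := fun e => by
        obtain ⟨r, hr, e'⟩ := (norm_inner_eq_norm_iff (𝕜 := ℂ) (x := ρ a v) (y := ρ b v)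
          (by rw [← norm_ne_zero_iff, hu1]; simp) (by rw [← norm_ne_zero_iff, hw1]; simp)).1
          (by rw [e, hu1, hw1, one_mul])
        exact hab (by rw [e', T_smul hr])
      refine hab (Set.eq_of_subset_of_ncard_le (fun t ht => ?_)
        (by rw [ncard_T_app, ncard_T_app]))
      refine mem_of_max hρ hα (hm b) ht.1 ?_ ht.2 hz
      by_contra hne
      have h1 := hmax (b, t * b) (fun e => hne (by rw [← app_mul]; exact e.symm))
      have h2 := angle hρ hα hn ht.1 ht.2 hu1 hw1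
      simp only [app_mul] at h1
      have h3 : 0 < (‖⟪ρ a v, ρ b v⟫_ℂ‖ - 1) ^ 2 := by
        have := sub_ne_zero.2 hlt
        positivity
      nlinarith
  have hne : (T ρ g α v).Nonempty := by
    rw [← Set.ncard_pos, ← hall 1]
    have : (T ρ g α v₀).Nonempty := ⟨g, IsConj.refl g, hv⟩
    exact lt_of_lt_of_le ((Set.ncard_pos).2 this) (hm 1 v₀ h0)
  obtain ⟨t, ht⟩ := hne
  obtain ⟨x, hx⟩ := isConj_iff.1 ht.1
  refine ⟨v, by rw [← norm_ne_zero_iff, hv1]; simp, fun h => ?_⟩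
  have : h * g * h⁻¹ ∈ T ρ g α (ρ (h * x⁻¹) v) := mem_T_app.2 (by
    convert ht using 1
    rw [← hx]; group)
  rw [hall] at this
  exact this.2

end Abs

section Chr

variable {G : Type*} [Group G] [Finite G]

open H7 in
open scoped ComplexOrder in
/-- Blichfeldt's sixty degree theorem. -/
theorem mem_charCenter {χ : G → ℂ} (hχ : IsIrrCharacter G χ) (D : Subgroup G)
    (hD : ∀ a b : D, a * b = b * a) (g : D) {l₀ : D → ℂ} (h₀ : IsIrrCharacter D l₀)
    (h₁ : ip (fun x : D => χ x) l₀ ≠ 0)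
    (h : ∀ l, IsIrrCharacter D l → ip (fun x : D => χ x) l ≠ 0 → ‖l g - l₀ g‖ ≤ 1)
    (hG : Subgroup.normalClosure {(g : G)} = ⊤) : (g : G) ∈ H6.charCenter χ := by
  classical
  letI := Fintype.ofFinite G
  letI := Fintype.ofFinite D
  obtain ⟨U, h1, h2, -⟩ := exists_unitary (irr_char hχ)
  generalize charDegree χ = n at U h1 h2
  let E := EuclideanSpace ℂ (Fin n)
  let φ := Matrix.toEuclideanCLM (n := Fin n) (𝕜 := ℂ)
  let W : G →* (E →L[ℂ] E) := (φ : _ →* _).comp U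
  have hW : ∀ a, W a = φ (U a) := fun _ => rfl
  have hs : ∀ a, star (W a) = W a⁻¹ := fun a => by rw [hW, hW, ← map_star, h2]
  let ρ : G →* (E →ₗ[ℂ] E) := (ContinuousLinearMap.toLinearMapRingHom (R₁ := ℂ) (M₁ := E)).toMonoidHom.comp W
  have hρ' : ∀ a x, ρ a x = W a x := fun _ _ => rfl
  have hρ : ∀ a x y, ⟪ρ a x, ρ a y⟫_ℂ = ⟪x, y⟫_ℂ := fun a x y => by
    rw [hρ', hρ', ← ContinuousLinearMap.adjoint_inner_right, ← ContinuousLinearMap.star_eq_adjoint,
      hs, ← mul_apply_eq_comp, ← map_mul, inv_mul_cancel, map_one]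
    rfl
  have htr : ∀ l, (linIdem (U.comp D.subtype) l).trace = ip (fun x : D => χ x) l := fun l => by
    rw [ip_def]
    simp [linIdem, h1, mul_comm]
  have hφ : ∀ l, linIdem (W.comp D.subtype) l = φ (linIdem (U.comp D.subtype) l) := fun l => by
    simp [linIdem, hW]
  have hl₀ := irr_one_eq_one_of_comm hD h₀
  have hα : ‖l₀ g‖ = 1 := by
    have := linear_mul_conj (irr_char h₀) hl₀ g
    rw [Complex.mul_conj, Complex.normSq_eq_norm_sq] at this
    have h3 : ‖l₀ g‖ ^ 2 = 1 := by exact_mod_cast this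
    exact (pow_eq_one_iff_of_nonneg (norm_nonneg _) two_ne_zero).1 h3
  have hE : linIdem (W.comp D.subtype) l₀ ≠ 0 := fun e => by
    rw [hφ, EmbeddingLike.map_eq_zero_iff] at e
    rw [← htr, e] at h₁
    simp at h₁
  obtain ⟨y₀, hy₀⟩ : ∃ y, linIdem (W.comp D.subtype) l₀ y ≠ 0 := by
    by_contra! e
    exact hE (ContinuousLinearMap.ext e)
  have hv : ρ g (linIdem (W.comp D.subtype) l₀ y₀) = l₀ g • linIdem (W.comp D.subtype) l₀ y₀ :=
    DFunLike.congr_fun (mul_linIdem (W.comp D.subtype) (irr_char h₀) hl₀ g) y₀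
  have hn' : ∀ y, ‖ρ g y - l₀ g • y‖ ≤ ‖y‖ := by
    haveI : Nontrivial (E →L[ℂ] E) := nontrivial_of_ne _ _ hE
    set T' := W g - algebraMap ℂ _ (l₀ g) with hT
    haveI : IsStarNormal (U g - algebraMap ℂ _ (l₀ g)) := ⟨by
      simp only [star_sub, h2, ← algebraMap_star_comm]
      exact ((((Commute.refl _).inv_left.map U).sub_right (Algebra.commutes _ _).symm).sub_left
        (Algebra.commutes _ _))⟩
    haveI : IsStarNormal T' := by
      rw [show T' = φ (U g - algebraMap ℂ _ (l₀ g)) by rw [map_sub, AlgHomClass.commutes]; rfl]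
      exact IsStarNormal.map φ _
    obtain ⟨k, hk, e⟩ := spectrum.exists_nnnorm_eq_spectralRadius T'
    rw [IsStarNormal.spectralRadius_eq_nnnorm, ENNReal.coe_inj, ← NNReal.coe_inj, coe_nnnorm,
      coe_nnnorm] at e
    obtain ⟨l, hl, h4, h5⟩ := spectrum_subset (W.comp D.subtype) hD g (k := k + l₀ g) (by
      rwa [spectrum.add_mem_iff, neg_add_eq_sub])
    have hi := mem_irrSet.mp hl
    have h6 := irr_one_eq_one_of_comm hD hi
    have h7 := h l hi (fun e' => h4 ?_)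
    · rw [h5, add_sub_cancel_right, e] at h7
      intro y
      exact (T'.le_opNorm y).trans (mul_le_of_le_one_left (norm_nonneg _) h7)
    rw [hφ, EmbeddingLike.map_eq_zero_iff]
    refine Matrix.toLin'.map_eq_zero_iff.mp (LinearMap.IsIdempotentElem.eq_zero_of_trace_eq_zero
      (by rw [IsIdempotentElem, Module.End.mul_eq_comp, ← Matrix.toLin'_mul,
        linIdem_mul_self _ (irr_char hi) h6]) ?_)
    rw [← e', Matrix.trace_toLin'_eq, htr]
  obtain ⟨v, hv0, hv⟩ := blich hρ hα hn' hy₀ hv hG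
  set Z : Matrix (Fin n) (Fin n) ℂ :=
    χ 1 • ∑ x : G, U (x * g * x⁻¹) - ((Nat.card G : ℂ) * χ g) • 1 with hZ
  have hZ1 : ∀ y, (Z * U y).trace = 0 := fun y => by
    have := sum_conj_of_irr_res (MonoidHom.id G) (irr_char hχ) hχ g y
    simp only [MonoidHom.id_apply] at this
    simp only [hZ, sub_mul, smul_mul_assoc, Finset.sum_mul, ← map_mul, one_mul, Matrix.trace_sub,
      Matrix.trace_smul, Matrix.trace_sum, h1, smul_eq_mul]
    linear_combination this
  have hZ2 : Z = 0 := by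
    rw [← Matrix.trace_mul_conjTranspose_self_eq_zero_iff, ← Matrix.star_eq_conjTranspose]
    have : star Z = star (χ 1) • ∑ x : G, U (x * g * x⁻¹)⁻¹ -
        star ((Nat.card G : ℂ) * χ g) • U 1 := by
      simp [hZ, star_sum, h2]
    rw [this]
    simp only [mul_sub, mul_smul_comm, Finset.mul_sum, Matrix.trace_sub, Matrix.trace_smul,
      Matrix.trace_sum, hZ1]
    simp
  have h8 : φ Z v = (χ 1 * (Nat.card G * l₀ g) - Nat.card G * χ g) • v := by
    simp only [hZ, map_sub, map_smul, map_sum, map_one, ← hW, _root_.sub_apply,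
      _root_.smul_apply, _root_.sum_apply, ← hρ', hv,
      one_apply_eq_self, Finset.sum_const, Finset.card_univ,
      ← Nat.card_eq_fintype_card, ← Nat.cast_smul_eq_nsmul ℂ, smul_smul, sub_smul]
  rw [hZ2, map_zero, _root_.zero_apply, eq_comm, smul_eq_zero] at h8
  have h9 : χ g = l₀ g * χ 1 := by
    refine mul_left_cancel₀ (card_ne_zero' G) ?_
    linear_combination -h8.resolve_right hv0
  rw [H6.mem_charCenter_iff (irr_char hχ), h9, norm_mul, hα, one_mul]

theorem norm_sub_le_of_floor_eq {u v : ℂ} (hu : ‖u‖ = 1) (hv : ‖v‖ = 1)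
    (h : ⌊(Real.pi - u.arg) / (Real.pi / 3)⌋ = ⌊(Real.pi - v.arg) / (Real.pi / 3)⌋) :
    ‖v - u‖ ≤ 1 := by
  have h1 := Int.abs_sub_lt_one_of_floor_eq_floor h
  have hp : 0 < Real.pi / 3 := by positivity
  rw [← sub_div, abs_div, abs_of_pos hp, div_lt_one hp, sub_sub_sub_cancel_left] at h1
  have h2 : 1 / 2 < Real.cos (v.arg - u.arg) := by
    rw [← Real.cos_pi_div_three, ← Real.cos_abs (v.arg - u.arg)]
    exact Real.cos_lt_cos_of_nonneg_of_le_pi (abs_nonneg _) (by linarith) h1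
  have h3 : (v * conj u).re = Real.cos (v.arg - u.arg) := by
    rw [Real.cos_sub, Complex.cos_arg (by rintro rfl; simp at hv),
      Complex.cos_arg (by rintro rfl; simp at hu), Complex.sin_arg, Complex.sin_arg, hu, hv]
    simp
  refine (sq_le_one_iff₀ (norm_nonneg _)).1 ?_
  rw [← Complex.normSq_eq_norm_sq, Complex.normSq_sub, h3, Complex.normSq_eq_norm_sq,
    Complex.normSq_eq_norm_sq, hu, hv]
  linarith

theorem floor_arg_mem (u : ℂ) :
    ⌊(Real.pi - u.arg) / (Real.pi / 3)⌋ ∈ Finset.Ico (0 : ℤ) 6 := by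
  have hp : 0 < Real.pi / 3 := by positivity
  rw [Finset.mem_Ico, Int.floor_nonneg, Int.floor_lt, div_lt_iff₀ hp]
  exact ⟨div_nonneg (sub_nonneg.mpr u.arg_le_pi) hp.le, by
    have := u.neg_pi_lt_arg; push_cast; linarith⟩

end Chr

end Cfsg.Agent.H8.Bl
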