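import Mathlib
import Cfsg.Agent.H8.Prin2
import Cfsg.Agent.H9.Root

/-!
Contributions of major subsections.
-/

set_option autoImplicit false

namespace Cfsg.Agent.H8

open Cfsg MonoidAlgebra H9
open Cfsg.Agent.H7 (ip)
open Subgroup (zpowers)

local notation:max "𝐂 " Q:max => Subgroup.centralizer (SetLike.coe Q)
local notation:max "𝐍 " Q:max => Subgroup.normalizer (SetLike.coe Q)
local notation:max "𝐙 " x:max => Subgroup.centralizer (Singleton.singleton x : Set _)

theorem fam_mono {m n : ℕ} (h : m ∣ n) : fam m ≤ fam n :=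
  Subring.closure_mono fun _ ⟨w, hw, e⟩ => ⟨w, by
    obtain ⟨c, rfl⟩ := h
    rw [pow_mul, hw, one_pow], e⟩

variable {M : Ideal AlgInt} [hMm : M.IsMaximal] {G : Type*} [Group G] [Finite G]
variable {p : ℕ} [hp : Fact p.Prime] [hM : PMod M p]
variable {B : Set (IrrCharacter G)} {P : Subgroup G} {e : (resField M)[G]} {u : G}

omit hp hM in
theorem contr_congr {H H' : Subgroup G} (h : H = H') {b : Set (IrrCharacter H)}
    {b' : Set (IrrCharacter H')} (hb : IsPBlock M b) (hb' : IsPBlock M b')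
    (he : eI M b = eI M b') (x : G) (θ φ : G → ℂ) : contr p x b θ φ = contr p x b' θ φ := by
  subst h
  rw [(eI_inj hb hb').1 he]

omit hM in
theorem zpowers_pow_eq (hu : ∃ k : ℕ, orderOf u = p ^ k) {t : ℕ} (ht : ¬ p ∣ t) :
    zpowers (u ^ t) = zpowers u := by
  obtain ⟨k, hk⟩ := hu
  refine le_antisymm (Subgroup.zpowers_le.2 (Subgroup.npow_mem_zpowers u t))
    (Subgroup.zpowers_le.2 ?_)
  obtain ⟨m, hm⟩ := exists_pow_eq_self_of_coprime (x := u) (n := t)
    (hk ▸ ((Nat.coprime_comm.1 ((hp.out.coprime_iff_not_dvd).2 ht)).pow_right k))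
  exact hm.subst (motive := fun x => x ∈ zpowers (u ^ t)) (Subgroup.npow_mem_zpowers _ m)

theorem contr_sbk_pow (he : IsPair p ⊤ P e) (hu : u ∈ P) {t : ℕ} (ht : ¬ p ∣ t) (θ φ : G → ℂ) :
    contr p (u ^ t) (sbk M p P e u) θ φ = contr p (u ^ t) (sbk M p P e (u ^ t)) θ φ := by
  have h1 : zpowers (u ^ t) = zpowers u := zpowers_pow_eq (p := p)
    (by simpa using IsPGroup.iff_orderOf.1 he.isP ⟨u, hu⟩) ht
  refine contr_congr ?_ (sbk_spec he hu).1 (sbk_spec he (P.pow_mem hu t)).1 ?_ _ _ _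
  · rw [← centralizer_zpowers, ← centralizer_zpowers, h1]
  · rw [(sbk_spec he hu).2, (sbk_spec he (P.pow_mem hu t)).2, sb_congr h1]

variable (hB : IsPBlock M B) (hm : MaxPair p ⊤ (eB M B) P e)
include hm

theorem exists_pstab_of_fc {v : G} (hu : u ∈ P ⊓ 𝐂 P)
    (hv : v ∈ P ⊓ 𝐂 P) (h : FC p P e u v) : ∃ t ∈ pstab ⊤ P e, t * u * t⁻¹ = v := by
  obtain ⟨g, rfl, hg⟩ := h
  have hc : ∀ w ∈ P ⊓ 𝐂 P, P ≤ 𝐂 (zpowers w) := fun w hw x hx => by
    rw [centralizer_zpowers]
    exact Subgroup.mem_centralizer_singleton_iff.2 (hw.2 x hx)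
  obtain ⟨c, hc', ht⟩ := hm.burnside (sb_spec hm.pair.1 hu.1) (Subgroup.mem_top g)
    (by rw [hg, cg_zpowers]; exact sb_spec hm.pair.1 hv.1) (hc _ hu)
    (by rw [cg_zpowers]; exact hc _ hv)
  refine ⟨_, ht, ?_⟩
  have := hc'.2 _ (conj_mem_cg.2 (Subgroup.mem_zpowers u))
  calc c * g * u * (c * g)⁻¹ = c * (g * u * g⁻¹) * c⁻¹ := by group
    _ = _ := by rw [← this, mul_inv_cancel_right]

theorem card_fc_center_le (y : P) (S : Finset P) (hS : ∀ u ∈ S, (u : G) ∈ 𝐂 P ∧ FC p P e u y) :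
    S.card ≤ (P ⊔ 𝐂 P).relIndex (pstab ⊤ P e) := by
  rcases S.eq_empty_or_nonempty with rfl | ⟨u, hu⟩
  · simp
  have h1 : S.card ≤ (𝐙 (u : G)).relIndex (pstab ⊤ P e) := by
    rw [← card_conjOrbit, ← Nat.card_eq_finsetCard]
    exact Nat.card_le_card_of_injective (fun v => ⟨v.1, exists_pstab_of_fc hm ⟨u.2, (hS u hu).1⟩
      ⟨v.1.2, (hS v v.2).1⟩ ((hS u hu).2.trans (hS v v.2).2.symm)⟩)
      fun v w h => Subtype.ext (Subtype.ext (by simpa using h))
  refine h1.trans (Subgroup.relIndex_le_of_le_left (sup_le (fun x hx => ?_) fun x hx => ?_)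
    Subgroup.FiniteIndex.index_ne_zero)
  · exact Subgroup.mem_centralizer_singleton_iff.2 ((hS u hu).1 x hx)
  · exact Subgroup.mem_centralizer_singleton_iff.2 (hx u u.2).symm

include hB

open Classical in
theorem sum_center_contr_le [Fintype P] {χ : IrrCharacter G} (hχ : χ ∈ B) :
    ∑ u ∈ Finset.univ.filter fun u : P => (u : G) ∈ 𝐂 P, (contr p (u : G) (sbk M p P e u) χ χ).re ≤
      (P ⊔ 𝐂 P).relIndex (pstab ⊤ P e) := by
  obtain ⟨Y, hY, -⟩ := exists_fRep (p := p) (P := P) (e := e) (fun _ => True)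
    fun u => ⟨u, FC.refl _, trivial⟩
  have h1 := congrArg Complex.re (sum_contr_irr hB hm hY hχ χ)
  rw [if_pos rfl, Complex.re_sum, Complex.one_re] at h1
  choose r hr hu using hY
  rw [← Finset.sum_fiberwise_of_maps_to (t := Y) (g := r) fun u _ => (hr u).1, ← mul_one
    ((_ : ℕ) : ℝ), ← h1, Finset.mul_sum]
  refine Finset.sum_le_sum fun y hy => ?_
  rw [Finset.sum_congr rfl (g := fun _ => (contr p (y : G) (sbk M p P e y) χ χ).re) fun u hu => by
    rw [contr_fc hm.pair.1 (irr_isClassFunction χ) (irr_isClassFunction χ) u.2 (r u).2 (hr u).2,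
      (Finset.mem_filter.1 hu).2], Finset.sum_const, nsmul_eq_mul]
  refine mul_le_mul_of_nonneg_right (Nat.cast_le.2 (card_fc_center_le hm y _ fun u hu => ?_)) ?_
  · exact ⟨(Finset.mem_filter.1 (Finset.mem_filter.1 hu).1).2,
      (Finset.mem_filter.1 hu).2 ▸ (hr u).2⟩
  · obtain ⟨x, hx, e⟩ := contr_self_nonneg (p := p) (y : G) (sbk M p P e y) χ
    rwa [e]

open Classical in
theorem le_sum_center_contr [Fintype P] {χ : IrrCharacter G} (hχ : χ ∈ B) :
    (Nat.card (Subgroup.center P) * p ^ blockHeight p B (χ : G → ℂ) : ℝ) ≤ p ^ blockDefect p B *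
      ∑ u ∈ Finset.univ.filter fun u : P => (u : G) ∈ 𝐂 P, (contr p (u : G) (sbk M p P e u) χ χ).re := by
  set d := blockDefect p B
  have hc : Nat.card P = p ^ d := card_isDef_eB hB hm.isDef
  have h1 : ∀ u : P, (u : G) ∈ 𝐂 P → ((resT p d).card : ℝ) * p ^ blockHeight p B (χ : G → ℂ) ≤
      ∑ t ∈ resT p d, p ^ d * (contr p ((u ^ t : P) : G) (sbk M p P e (u ^ t : P)) χ χ).re := by
    intro u hu
    obtain ⟨k, hk, hk'⟩ := (Nat.dvd_prime_pow hp.out).1 (hc ▸ orderOf_dvd_natCard u)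
    rw [← Subgroup.orderOf_coe] at hk'
    have h2 := fam_mono (mul_dvd_mul_left p (pow_dvd_pow p hk)) ((sbk_subs hB hm u.2).contr_mem_fam
      hk' (H6.isGen_of_irr χ.2) (H6.isGen_of_irr χ.2))
    rw [blockDefect_sbk hB hm u.2 hu] at h2
    refine (fam_sum_norm_ge (M := M) h2 ?_ fun t ht => ((sbk_subs hB hm u.2).pow ht).contr_div_mem
      hB hχ (H6.isGen_of_irr χ.2)).trans_eq (Finset.sum_congr rfl fun t ht => ?_)
    · rw [pow_one]
      exact mul_ne_zero (pow_ne_zero _ (Nat.cast_ne_zero.2 hp.out.ne_zero))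
        (contr_ne_zero_of_center hB hm u.2 hu hχ)
    · rw [norm_pow_mul_contr_self, contr_sbk_pow hm.pair.1 u.2 (not_dvd_of_mem_resT ht)]
      rfl
  have h2 := Finset.sum_le_sum (s := Finset.univ.filter fun u : P => (u : G) ∈ 𝐂 P)
    fun u hu => h1 u (Finset.mem_filter.1 hu).2
  rw [Finset.sum_comm, Finset.sum_const, Finset.sum_congr rfl (g := fun _ => (p : ℝ) ^ d *
    ∑ u ∈ Finset.univ.filter fun u : P => (u : G) ∈ 𝐂 P,
      (contr p (u : G) (sbk M p P e u) χ χ).re) fun t ht => ?_,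
    Finset.sum_const, nsmul_eq_mul, nsmul_eq_mul, mul_left_comm] at h2
  · refine le_trans (le_of_eq ?_) (le_of_mul_le_mul_left h2 (Nat.cast_pos.2 (card_resT_pos d)))
    congr 2
    rw [Nat.card_eq_fintype_card, Fintype.card_subtype]
    refine congrArg _ (Finset.filter_congr fun u _ => ?_)
    exact ⟨fun h x hx => congrArg Subtype.val (Subgroup.mem_center_iff.1 h ⟨x, hx⟩),
      fun h => Subgroup.mem_center_iff.2 fun x => Subtype.ext (h x x.2)⟩
  · rw [Finset.mul_sum]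
    have hcop : (Nat.card P).Coprime t :=
      hc ▸ ((hp.out.coprime_iff_not_dvd.2 (not_dvd_of_mem_resT ht)).pow_left d)
    refine Finset.sum_equiv (powCoprime hcop) (fun u => ?_) fun _ _ => rfl
    simp only [Finset.mem_filter, Finset.mem_univ, true_and, ← Subgroup.zpowers_le,
      powCoprime_apply, Subgroup.coe_pow]
    rw [zpowers_pow_eq (p := p) (by simpa using IsPGroup.iff_orderOf.1 hm.isP u)
      (not_dvd_of_mem_resT ht)]

/-- Brauer's bound for the heights. -/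
theorem card_center_mul_le {χ : IrrCharacter G} (hχ : χ ∈ B) :
    Nat.card (Subgroup.center P) * p ^ blockHeight p B (χ : G → ℂ) ≤
      p ^ blockDefect p B * (P ⊔ 𝐂 P).relIndex (pstab ⊤ P e) := by
  haveI := Fintype.ofFinite P
  exact_mod_cast (le_sum_center_contr hB hm hχ).trans
    (mul_le_mul_of_nonneg_left (sum_center_contr_le hB hm hχ) (by positivity))

end Cfsg.Agent.H8
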