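import Mathlib
import Cfsg.Agent.H8.Prin2
import Cfsg.Agent.H9.StAb

/-!
Alternating sums over chains of `p`-subgroups (Knörr–Robinson).
-/

set_option autoImplicit false

namespace Cfsg.Agent.H8

open Cfsg MonoidAlgebra H9
open Subgroup (zpowers)

local notation:max "𝐂 " Q:max => Subgroup.centralizer (SetLike.coe Q)
local notation:max "𝐍 " Q:max => Subgroup.normalizer (SetLike.coe Q)
local notation:max "𝐙 " x:max => Subgroup.centralizer (Singleton.singleton x : Set _)

section Comb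
variable {G : Type*} [Group G] {p : ℕ}

variable (p) in
/-- Chains of nontrivial `p`-subgroups normalizing one another. -/
structure Ch (s : Finset (Subgroup G)) : Prop where
  tot : ∀ Q ∈ s, ∀ R ∈ s, Q ≤ R ∨ R ≤ Q
  ne : ∀ Q ∈ s, Q ≠ ⊥
  isP : ∀ Q ∈ s, IsPGroup p Q
  nor : ∀ Q ∈ s, ∀ R ∈ s, R ≤ 𝐍 Q

/-- The stabilizer of a chain. -/
abbrev chN (s : Finset (Subgroup G)) : Subgroup G := ⨅ Q ∈ s, 𝐍 Q

theorem mem_chN {s : Finset (Subgroup G)} {g : G} : g ∈ chN s ↔ ∀ Q ∈ s, g ∈ 𝐍 Q := by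
  simp [chN, Subgroup.mem_iInf]

theorem mem_normalizer_sup {s : Finset (Subgroup G)} {g : G} (h : ∀ Q ∈ s, g ∈ 𝐍 Q) :
    g ∈ 𝐍 (s.sup id : Subgroup G) :=
  Finset.sup_induction (p := fun U : Subgroup G => g ∈ 𝐍 U) (mem_normalizer_iff_cg.2 (cg_bot g))
    (fun _ h1 _ h2 => Subgroup.normalizer_inf_normalizer_le_normalizer_sup _ _ ⟨h1, h2⟩) h

theorem Ch.sup_mem {s : Finset (Subgroup G)} (h : Ch p s) (hs : s.Nonempty) : s.sup id ∈ s := by
  obtain ⟨T, hT, hm⟩ := s.exists_maximal hs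
  rwa [show s.sup id = T from le_antisymm
    (Finset.sup_le fun Q hQ => (h.tot Q hQ T hT).elim id (hm hQ)) (Finset.le_sup (f := id) hT)]

theorem Ch.isP_sup {s : Finset (Subgroup G)} (h : Ch p s) : IsPGroup p (s.sup id : Subgroup G) := by
  rcases s.eq_empty_or_nonempty with rfl | hs
  · exact IsPGroup.of_bot
  · exact h.isP _ (h.sup_mem hs)

theorem Ch.mono {s t : Finset (Subgroup G)} (h : Ch p s) (ht : t ⊆ s) : Ch p t :=
  ⟨fun Q hQ R hR => h.tot Q (ht hQ) R (ht hR), fun Q hQ => h.ne Q (ht hQ),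
    fun Q hQ => h.isP Q (ht hQ), fun Q hQ R hR => h.nor Q (ht hQ) R (ht hR)⟩

open Classical in
/-- The join of the members not containing `x`. -/
noncomputable def chL (x : G) (s : Finset (Subgroup G)) : Subgroup G :=
  (s.filter fun Q => x ∉ Q).sup id

/-- The join of all members and `x`. -/
def chT (x : G) (s : Finset (Subgroup G)) : Subgroup G := s.sup id ⊔ zpowers x

/-- The subgroup to be added or removed. -/
noncomputable def chR (x : G) (s : Finset (Subgroup G)) : Subgroup G :=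
  sInf {U | chL x s ≤ U ∧ x ∈ U ∧ chT x s ≤ 𝐍 U}

variable {x : G} {s : Finset (Subgroup G)}

theorem le_chL {Q : Subgroup G} (hQ : Q ∈ s) (hx : x ∉ Q) : Q ≤ chL x s := by
  classical
  exact Finset.le_sup (f := id) (Finset.mem_filter.2 ⟨hQ, hx⟩)

theorem chL_le {U : Subgroup G} (h : ∀ Q ∈ s, x ∉ Q → Q ≤ U) : chL x s ≤ U := by
  classical
  exact Finset.sup_le fun Q hQ => h Q (Finset.mem_filter.1 hQ).1 (Finset.mem_filter.1 hQ).2

theorem le_chT {Q : Subgroup G} (hQ : Q ∈ s) : Q ≤ chT x s :=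
  (Finset.le_sup (f := id) hQ).trans le_sup_left

theorem mem_chT : x ∈ chT x s := Subgroup.mem_sup_right (Subgroup.mem_zpowers x)

theorem chT_le {U : Subgroup G} (h : ∀ Q ∈ s, Q ≤ U) (hx : x ∈ U) : chT x s ≤ U :=
  sup_le (Finset.sup_le h) (Subgroup.zpowers_le.2 hx)

theorem chL_le_chR : chL x s ≤ chR x s := le_sInf fun _ h => h.1

theorem mem_chR : x ∈ chR x s := Subgroup.mem_sInf.2 fun _ h => h.2.1

theorem chR_le {U : Subgroup G} (h1 : chL x s ≤ U) (h2 : x ∈ U) (h3 : chT x s ≤ 𝐍 U) :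
    chR x s ≤ U := sInf_le ⟨h1, h2, h3⟩

theorem chT_le_normalizer : chT x s ≤ 𝐍 (chR x s) := fun t ht =>
  Subgroup.mem_normalizer_iff.2 fun h => by
    simp only [chR, Subgroup.mem_sInf]
    exact forall₂_congr fun U hU => Subgroup.mem_normalizer_iff.1 (hU.2.2 ht) h

theorem chR_le_chT : chR x s ≤ chT x s :=
  chR_le (chL_le fun _ hQ _ => le_chT hQ) mem_chT Subgroup.le_normalizer

theorem mem_normalizer_chR {g : G} (hg : g ∈ chN s ⊓ 𝐙 x) : g ∈ 𝐍 (chR x s) := by
  classical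
  have key : ∀ g ∈ chN s ⊓ 𝐙 x, chR x s ≤ cg g (chR x s) := fun g hg => by
    have e : g * x * g⁻¹ = x := by
      rw [Subgroup.mem_centralizer_singleton_iff.1 hg.2, mul_inv_cancel_right]
    have h1 : cg g (chL x s) = chL x s := mem_normalizer_iff_cg.1
      (mem_normalizer_sup fun Q hQ => mem_chN.1 hg.1 Q (Finset.mem_filter.1 hQ).1)
    have h2 : cg g (chT x s) = chT x s := by
      rw [chT, cg_sup, mem_normalizer_iff_cg.1 (mem_normalizer_sup (mem_chN.1 hg.1)),
        cg_zpowers, e]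
    refine chR_le (h1 ▸ cg_mono g chL_le_chR) ?_ ?_
    · have := (conj_mem_cg (x := g)).2 (mem_chR (x := x) (s := s))
      rwa [e] at this
    · rw [← cg_normalizer]
      exact h2.ge.trans (cg_mono g chT_le_normalizer)
  refine mem_normalizer_iff_cg.2 (le_antisymm (cg_le_iff.2 (key _ (inv_mem hg))) (key g hg))

theorem chL_insert [DecidableEq (Subgroup G)] {U : Subgroup G} (hU : x ∈ U) :
    chL x (insert U s) = chL x s :=
  le_antisymm (chL_le fun Q hQ hx => le_chL ((Finset.mem_insert.1 hQ).resolve_left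
    fun e => hx (e ▸ hU)) hx) (chL_le fun _ hQ hx => le_chL (Finset.mem_insert_of_mem hQ) hx)

theorem chR_insert [DecidableEq (Subgroup G)] {U : Subgroup G} (hU : x ∈ U) (h : U ≤ chT x s) :
    chR x (insert U s) = chR x s := by
  have : chT x (insert U s) = chT x s :=
    le_antisymm (chT_le (fun Q hQ => (Finset.mem_insert.1 hQ).elim (fun e => e ▸ h) le_chT) mem_chT)
      (chT_le (fun _ hQ => le_chT (Finset.mem_insert_of_mem hQ)) mem_chT)
  rw [chR, chR, this, chL_insert hU]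

variable (h : Ch p s) (hx : x ∈ chN s)
include h hx

theorem Ch.chT_le {Q : Subgroup G} (hQ : Q ∈ s) : chT x s ≤ 𝐍 Q :=
  H8.chT_le (h.nor Q hQ) (mem_chN.1 hx Q hQ)

theorem Ch.chR_le {Q : Subgroup G} (hQ : Q ∈ s) (hxQ : x ∈ Q) : chR x s ≤ Q :=
  H8.chR_le (chL_le fun R hR hxR => (h.tot R hR Q hQ).resolve_right fun e => hxR (e hxQ)) hxQ
    (h.chT_le hx hQ)

variable (hxp : IsPGroup p (zpowers x))
include hxp

theorem Ch.isP_chT : IsPGroup p (chT x s) :=
  h.isP_sup.to_sup_of_normal_left' hxp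
    (Subgroup.zpowers_le.2 (mem_normalizer_sup (mem_chN.1 hx)))

theorem Ch.insert [DecidableEq (Subgroup G)] (h1 : x ≠ 1) : Ch p (insert (chR x s) s) := by
  have c : ∀ Q ∈ s, Q ≤ chR x s ∨ chR x s ≤ Q := fun Q hQ => by
    by_cases hxQ : x ∈ Q
    · exact Or.inr (h.chR_le hx hQ hxQ)
    · exact Or.inl ((le_chL hQ hxQ).trans chL_le_chR)
  refine ⟨?_, ?_, ?_, ?_⟩ <;> simp only [Finset.forall_mem_insert]
  · exact ⟨⟨Or.inl le_rfl, fun Q hQ => (c Q hQ).symm⟩, fun Q hQ => ⟨c Q hQ, h.tot Q hQ⟩⟩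
  · exact ⟨fun e => h1 (by simpa [e] using mem_chR (x := x) (s := s)), h.ne⟩
  · exact ⟨(h.isP_chT hx hxp).to_le chR_le_chT, h.isP⟩
  · exact ⟨⟨Subgroup.le_normalizer, fun Q hQ => (le_chT hQ).trans chT_le_normalizer⟩,
      fun Q hQ => ⟨chR_le_chT.trans (h.chT_le hx hQ), h.nor Q hQ⟩⟩

theorem Ch.chR_erase [Finite G] [Fact p.Prime] [DecidableEq (Subgroup G)] (hR : chR x s ∈ s) :
    chR x (s.erase (chR x s)) = chR x s := by
  have key : chR x s ≤ chT x (s.erase (chR x s)) := by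
    by_cases h1 : ∃ Q ∈ s.erase (chR x s), x ∈ Q
    · obtain ⟨Q, hQ, hxQ⟩ := h1
      exact (h.chR_le hx (Finset.mem_of_mem_erase hQ) hxQ).trans (le_chT hQ)
    push Not at h1
    have h2 : chL x s ≤ chT x (s.erase (chR x s)) := chL_le fun Q hQ hxQ =>
      le_chT (Finset.mem_erase.2 ⟨fun e => hxQ (e ▸ mem_chR), hQ⟩)
    have h3 : chT x s ≤ chR x s := H8.chT_le (fun Q hQ => by
      by_cases e : Q = chR x s
      · exact e.le
      · exact (le_chL hQ (h1 Q (Finset.mem_erase.2 ⟨e, hQ⟩))).trans chL_le_chR) mem_chR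
    by_contra hn
    obtain ⟨U, h4, -, h5, h6⟩ := exists_max_above (h.isP _ hR)
      (D := chT x (s.erase (chR x s)) ⊓ chR x s) (lt_of_le_of_ne inf_le_right
        fun e => hn (inf_eq_right.1 e))
    rw [Subgroup.relIndex_eq_one.2 (H8.chR_le ((le_inf h2 chL_le_chR).trans h4)
      (h4 ⟨mem_chT, mem_chR⟩) (h3.trans h5))] at h6
    exact (Fact.out : p.Prime).one_lt.ne h6
  rw [← chR_insert mem_chR key, Finset.insert_erase hR]

omit h hx in
/-- The alternating sum over the chains stabilized by a nontrivial `p`-element vanishes. -/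
theorem sum_chains_eq_zero [Finite G] [Fact p.Prime] (h1 : x ≠ 1) (F : Subgroup G → ℤ)
    (S : Finset (Finset (Subgroup G))) (hS : ∀ s, s ∈ S ↔ Ch p s ∧ x ∈ chN s) :
    ∑ s ∈ S, (-1) ^ s.card * F (chN s ⊓ 𝐙 x) = 0 := by
  classical
  have e : ∀ s : Finset (Subgroup G), chN (Insert.insert (chR x s) s) ⊓ 𝐙 x = chN s ⊓ 𝐙 x :=
    fun s => le_antisymm (inf_le_inf_right _ fun g hg => mem_chN.2 fun Q hQ =>
      mem_chN.1 hg Q (Finset.mem_insert_of_mem hQ)) fun g hg => ⟨mem_chN.2 fun Q hQ =>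
        (Finset.mem_insert.1 hQ).elim (fun e => e ▸ mem_normalizer_chR hg) (mem_chN.1 hg.1 Q), hg.2⟩
  refine Finset.sum_involution
    (fun s _ => if chR x s ∈ s then s.erase (chR x s) else Insert.insert (chR x s) s)
    (fun s hs => ?_) (fun s _ _ => ?_) (fun s hs => ?_) fun s hs => ?_
  · obtain ⟨h, hx⟩ := (hS s).1 hs
    split_ifs with hR
    · have := e (s.erase (chR x s))
      rw [h.chR_erase hx hxp hR, Finset.insert_erase hR] at this
      rw [← this, ← Finset.card_erase_add_one hR, pow_succ]; ring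
    · rw [e, Finset.card_insert_of_notMem hR, pow_succ]; ring
  · split_ifs with hR
    · exact fun e => Finset.notMem_erase _ s (e.ge hR)
    · exact fun e => hR (e.le (Finset.mem_insert_self _ s))
  · obtain ⟨h, hx⟩ := (hS s).1 hs
    rw [hS]
    split_ifs with hR
    · exact ⟨h.mono (Finset.erase_subset _ _), mem_chN.2 fun Q hQ =>
        mem_chN.1 hx Q (Finset.mem_of_mem_erase hQ)⟩
    · exact ⟨h.insert hx hxp h1, mem_chN.2 fun Q hQ => (Finset.mem_insert.1 hQ).elim
        (fun e => e ▸ chT_le_normalizer mem_chT) (mem_chN.1 hx Q)⟩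
  · obtain ⟨h, hx⟩ := (hS s).1 hs
    by_cases hR : chR x s ∈ s
    · simp only [if_pos hR]
      rw [h.chR_erase hx hxp hR, if_neg (Finset.notMem_erase _ s), Finset.insert_erase hR]
    · simp only [if_neg hR]
      rw [chR_insert mem_chR chR_le_chT, if_pos (Finset.mem_insert_self _ s),
        Finset.erase_insert hR]

end Comb

variable {M : Ideal AlgInt} [hMm : M.IsMaximal] {p : ℕ} [hp : Fact p.Prime] [hM : PMod M p]
variable {G : Type*} [Group G] [Finite G]

variable (M) in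
/-- The characters whose central character does not vanish at `z`. -/
def lset (z : (resField M)[G]) : Set (IrrCharacter G) := {ξ | lam M (ξ : G → ℂ) z ≠ 0}

omit hp hM in
theorem isBlockUnion_lset (z : (resField M)[G]) : IsBlockUnion M (lset M z) := fun χ hχ ψ h => by
  simp only [lset, Set.mem_ofPred_eq] at hχ ⊢
  rwa [h]

omit hp hM in
theorem lam_irrEquiv {H : Type*} [Group H] [Finite H] (ψ : H ≃* G) (ξ : IrrCharacter H)
    {z : (resField M)[H]} (hz : z ∈ Zen (resField M) H) {z' : (resField M)[G]}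
    (hz' : z' ∈ Zen (resField M) G) (h : ∀ k, z'.coeff (ψ k) = z.coeff k) :
    lam M (irrEquiv ψ ξ : G → ℂ) z' = lam M (ξ : H → ℂ) z := by
  have e : z' = em _ ψ.toMonoidHom z := ga_ext fun g => by
    obtain ⟨k, rfl⟩ := ψ.surjective g
    exact (h k).trans (coeff_em (φ := ψ.toMonoidHom) ψ.injective z k).symm
  rw [← H9.lam_eB (isPBlock_blockOf _) (mem_blockOf_self _) (mem_fix_top_iff.2 hz'),
    ← H9.lam_eB (isPBlock_blockOf _) (mem_blockOf_self _) (mem_fix_top_iff.2 hz),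
    blockOf_irrEquiv, eB_image, e, lam_em ψ.injective]

theorem blockRank_lset_eq {H : Type*} [Group H] [Finite H] (ψ : H ≃* G)
    {z : (resField M)[H]} (hz : z ∈ Zen (resField M) H) {z' : (resField M)[G]}
    (hz' : z' ∈ Zen (resField M) G) (h : ∀ k, z'.coeff (ψ k) = z.coeff k) :
    blockRank p (lset M z') = blockRank p (lset M z) := by
  have e : lset M z' = irrEquiv ψ '' lset M z := by
    ext χ
    obtain ⟨ξ, rfl⟩ := (irrEquiv ψ).surjective χ
    rw [(irrEquiv ψ).injective.mem_set_image]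
    simp only [lset, Set.mem_ofPred_eq, lam_irrEquiv ψ ξ hz hz' h]
  refine Nat.cast_injective (R := ℂ) ?_
  rw [blockRank_eq_sum (isBlockUnion_lset z), blockRank_eq_sum (isBlockUnion_lset z'), e,
    sum_bs_image]
  exact Finset.sum_congr rfl fun χ _ => by simp [← rip_comp_equiv ψ]

variable (p) in
/-- `|K|` times the rank of the set of characters of `K` not vanishing at `z`. -/
noncomputable def wrk (z : (resField M)[G]) (K : Subgroup G) : ℕ :=
  Nat.card K * blockRank p (lset M (resSub _ K z))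

theorem wrk_eq {H : Type*} [Group H] [Finite H] {ι : H →* G} (hι : Function.Injective ι)
    {z : (resField M)[G]} (hz : z ∈ Zen (resField M) G) {z' : (resField M)[H]}
    (h : ∀ k, z'.coeff k = z.coeff (ι k)) {K : Subgroup G} (hK : ι.range = K) :
    Nat.card H * blockRank p (lset M z') = wrk p z K := by
  subst hK
  have hz' : z' ∈ Zen (resField M) H := mem_Zen_iff.2 fun x g => by
    rw [h, h, ι.map_mul, ι.map_mul, ι.map_inv, mem_Zen_iff.1 hz]
  rw [wrk, ← Nat.card_congr (MonoidHom.ofInjective hι).toEquiv,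
    blockRank_lset_eq (MonoidHom.ofInjective hι) hz' (resSub_mem_Zen _ fun x _ => mem_Zen_iff.1 hz x) fun k => (h k).symm]

theorem indSet_lset {z : (resField M)[G]} (hz : z ∈ Zen (resField M) G) {x : G}
    (hx : ∃ k : ℕ, orderOf x = p ^ k) : indSet M (𝐙 x) (lset M z) = lset M (resSub _ _ z) := by
  classical
  ext ξ
  obtain ⟨B, hB⟩ := inducedBlockDefined_centralizer hM.out hx (isPBlock_blockOf ξ)
  obtain ⟨χ, hχ⟩ := block_nonempty hB.2.1
  simp only [indSet, Set.mem_ofPred_eq]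
  rw [IsInducedBlock.lam_eq hB (mem_blockOf_self ξ) hχ (eB_mem_Zen _),
    H8.lam_eB (isBlockUnion_lset z), lset, lset, Set.mem_ofPred_eq, Set.mem_ofPred_eq,
    IsInducedBlock.lam_eq hB (mem_blockOf_self ξ) hχ hz]
  split_ifs with h <;> simpa using h

theorem card_conj_eq [Fintype G] [DecidableEq G] {x y : G} (h : IsConj x y) :
    (Finset.univ.filter fun g : G => g * y * g⁻¹ = x).card = Nat.card (𝐙 x) := by
  obtain ⟨c, rfl⟩ := isConj_iff.1 h
  rw [← Nat.card_eq_finsetCard]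
  refine Nat.card_congr ⟨fun g => ⟨g * c, ?_⟩, fun g => ⟨g * c⁻¹, ?_⟩, fun g => by simp,
    fun g => by simp⟩
  · have := (Finset.mem_filter.1 g.2).2
    rw [Subgroup.mem_centralizer_singleton_iff]
    calc g * c * x = g * (c * x * c⁻¹) * (g : G)⁻¹ * (g * c) := by group
      _ = _ := by rw [this]
  · have := Subgroup.mem_centralizer_singleton_iff.1 g.2
    refine Finset.mem_filter.2 ⟨Finset.mem_univ _, ?_⟩
    calc g * c⁻¹ * (c * x * c⁻¹) * (g * c⁻¹)⁻¹ = g * x * (g : G)⁻¹ := by group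
      _ = _ := by rw [this, mul_inv_cancel_right]

open Classical in
theorem sum_pElt_eq [Fintype G] {X : Finset G} (hX : ∀ x ∈ X, ∃ k : ℕ, orderOf x = p ^ k)
    (hXrep : ∀ g : G, (∃ k : ℕ, orderOf g = p ^ k) → ∃! x, x ∈ X ∧ IsConj g x) (R : G → ℕ)
    (hR : ∀ x y, IsConj x y → R x = R y) :
    ∑ x : G with ∃ k : ℕ, orderOf x = p ^ k, Nat.card (𝐙 x) * R x = Nat.card G * ∑ y ∈ X, R y := by
  have h1 : ∀ y ∈ X, Nat.card G * R y = ∑ x : G with ∃ k : ℕ, orderOf x = p ^ k,
      (Finset.univ.filter fun g : G => g * y * g⁻¹ = x).card * R x := fun y hy => by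
    rw [Nat.card_eq_fintype_card, ← Finset.card_univ, ← smul_eq_mul, ← Finset.sum_const,
      ← Finset.sum_fiberwise_of_maps_to (t := Finset.univ.filter fun x : G =>
        ∃ k : ℕ, orderOf x = p ^ k) (g := fun g => g * y * g⁻¹) fun g _ => Finset.mem_filter.2
          ⟨Finset.mem_univ _, by rw [H20.orderOf_conj]; exact hX y hy⟩]
    refine Finset.sum_congr rfl fun x _ => ?_
    rw [← smul_eq_mul, ← Finset.sum_const]
    exact Finset.sum_congr rfl fun g hg => hR _ _ (isConj_iff.2 ⟨g, (Finset.mem_filter.1 hg).2⟩)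
  rw [Finset.mul_sum, Finset.sum_congr rfl h1, Finset.sum_comm]
  refine Finset.sum_congr rfl fun x hx => ?_
  obtain ⟨y, ⟨hy, hc⟩, hu⟩ := hXrep x (Finset.mem_filter.1 hx).2
  rw [Finset.sum_eq_single_of_mem y hy fun y' hy' hne => ?_, card_conj_eq hc]
  rw [Finset.filter_false_of_mem fun g _ e => hne (hu y' ⟨hy', (isConj_iff.2 ⟨g, e⟩).symm⟩)]
  simp

open Classical in
theorem card_mul_card_lset [Fintype G] {H : Type*} [Group H] [Finite H] {ι : H →* G}
    (hι : Function.Injective ι) {z : (resField M)[G]} (hz : z ∈ Zen (resField M) G)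
    {z' : (resField M)[H]} (h : ∀ k, z'.coeff k = z.coeff (ι k)) :
    (Nat.card H : ℤ) * ((Nat.card (lset M z') : ℤ) - blockRank p (lset M z')) =
      ∑ x : G with (∃ k : ℕ, orderOf x = p ^ k) ∧ x ≠ 1,
        if x ∈ ι.range then (wrk p z (ι.range ⊓ 𝐙 x) : ℤ) else 0 := by
  haveI := Fintype.ofFinite H
  have hz' : z' ∈ Zen (resField M) H := mem_Zen_iff.2 fun x g => by
    rw [h, h, ι.map_mul, ι.map_mul, ι.map_inv, mem_Zen_iff.1 hz]
  have h1 : ∀ x : H, Nat.card (𝐙 x) * blockRank p (lset M (resSub _ (𝐙 x) z')) =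
      wrk p z (ι.range ⊓ 𝐙 (ι x)) := fun x =>
    wrk_eq (ι := ι.comp (𝐙 x).subtype) (hι.comp Subtype.val_injective) hz (fun k => h k) (by
      ext g
      simp only [MonoidHom.mem_range, Subgroup.mem_inf, Subgroup.mem_centralizer_singleton_iff]
      constructor
      · rintro ⟨k, rfl⟩
        refine ⟨⟨k, rfl⟩, ?_⟩
        change ι k * ι x = ι x * ι k
        rw [← map_mul, Subgroup.mem_centralizer_singleton_iff.1 k.2, map_mul]
      · rintro ⟨⟨k, rfl⟩, e⟩
        exact ⟨⟨k, Subgroup.mem_centralizer_singleton_iff.2 (hι (by simpa using e))⟩, rfl⟩)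
  obtain ⟨X, hX, -, hXrep⟩ := exists_reps p H
  have h2 := sum_pElt_eq hX hXrep (fun x => blockRank p (lset M (resSub _ (𝐙 x) z')))
    fun x y hxy => by
      obtain ⟨c, rfl⟩ := isConj_iff.1 hxy
      exact (blockRank_lset_eq (cgEquiv (cg_centralizer_singleton c x)) 
        (resSub_mem_Zen _ fun x _ => mem_Zen_iff.1 hz' x)
        (resSub_mem_Zen _ fun x _ => mem_Zen_iff.1 hz' x) fun k => mem_Zen_iff.1 hz' _ _).symm
  rw [← Finset.sum_congr rfl fun x hx => congrArg (blockRank p) (indSet_lset hz' (hX x hx)),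
    ← card_eq_sum_rank hX hXrep (isBlockUnion_lset z'), Finset.sum_congr rfl fun x _ => h1 x,
    ← Finset.add_sum_erase _ _ (a := 1) (Finset.mem_filter.2 ⟨Finset.mem_univ _, 0, by simp⟩),
    ← wrk_eq hι hz h (K := ι.range ⊓ 𝐙 (ι 1)) (by
      rw [map_one, eq_comm, inf_eq_left]
      exact fun g _ => Subgroup.mem_centralizer_singleton_iff.2 (by simp))] at h2
  rw [mul_sub, ← Nat.cast_mul, ← h2]
  push_cast
  rw [add_sub_cancel_left]
  refine Eq.trans ?_ (@Finset.sum_filter _ _ _ _ _ (fun _ => Classical.propDecidable _) _)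
  refine Finset.sum_bij (fun x _ => ι x) (fun x hx => ?_) (fun x _ y _ e => hι e)
    (fun x hx => ?_) fun _ _ => rfl
  · simp only [Finset.mem_erase, Finset.mem_filter, Finset.mem_univ, true_and] at hx ⊢
    exact ⟨⟨by rw [orderOf_injective ι hι]; exact hx.2, fun e => hx.1 (hι (by simpa using e))⟩,
      x, rfl⟩
  · simp only [Finset.mem_filter, Finset.mem_univ, true_and] at hx
    obtain ⟨⟨h3, h4⟩, k, rfl⟩ := hx
    refine ⟨k, ?_, rfl⟩
    simp only [Finset.mem_erase, Finset.mem_filter, Finset.mem_univ, true_and]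
    exact ⟨fun e => h4 (by simp [e]), by rwa [orderOf_injective ι hι] at h3⟩

/-- The Knörr–Robinson alternating sum. -/
theorem sum_chains_lset {z : (resField M)[G]} (hz : z ∈ Zen (resField M) G)
    (S : Finset (Finset (Subgroup G))) (hS : ∀ s, s ∈ S ↔ Ch p s) :
    ∑ s ∈ S, (-1 : ℤ) ^ s.card * ((Nat.card (chN s) : ℤ) *
      ((Nat.card (lset M (resSub _ (chN s) z)) : ℤ) - blockRank p (lset M (resSub _ (chN s) z))))
      = 0 := by
  classical
  haveI := Fintype.ofFinite G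
  rw [Finset.sum_congr rfl fun s _ => by
    rw [card_mul_card_lset (chN s).subtype_injective hz fun _ => rfl, Finset.mul_sum],
    Finset.sum_comm]
  refine Finset.sum_eq_zero fun x hx => ?_
  obtain ⟨h1, h2⟩ := (Finset.mem_filter.1 hx).2
  refine Eq.trans ?_ (sum_chains_eq_zero (isPGroup_zpowers h1) h2 (fun K => (wrk p z K : ℤ))
    (S.filter fun s => x ∈ chN s) fun s => by rw [Finset.mem_filter, hS])
  rw [Finset.sum_filter]
  refine Finset.sum_congr rfl fun s _ => ?_
  rw [Subgroup.range_subtype]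
  split_ifs <;> simp

end Cfsg.Agent.H8
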