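import Mathlib
import Cfsg.Agent.H8.Prin2
import Cfsg.Agent.H20.Invol

/-!
Groups with a four-subgroup whose involutions have small centralizers; Brauer's bound for groups
of given `2`-deficiency class.
-/

set_option autoImplicit false

namespace Cfsg.Agent.H8

open Cfsg MonoidAlgebra H9
open Subgroup (zpowers)

local notation:max "𝐂 " Q:max => Subgroup.centralizer (SetLike.coe Q)
local notation:max "𝐙 " x:max => Subgroup.centralizer (Singleton.singleton x : Set _)

universe u

section Grp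
variable {G : Type*} [Group G] [Finite G]

theorem card_le_cz_of_conj {s : Finset G} {z b : G} (h : ∀ x ∈ s, x * z * x⁻¹ = b) :
    s.card ≤ Nat.card (𝐙 z) := by
  rcases s.eq_empty_or_nonempty with rfl | ⟨x₀, h₀⟩
  · simp
  rw [← Nat.card_eq_finsetCard]
  refine Nat.card_le_card_of_injective (fun x : s => (⟨x₀⁻¹ * x, ?_⟩ : 𝐙 z)) fun x y e => ?_
  · rw [Subgroup.mem_centralizer_singleton_iff]
    have e := (h x x.2).trans (h x₀ h₀).symm
    calc x₀⁻¹ * x * z = x₀⁻¹ * (x * z * (x : G)⁻¹) * x := by group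
      _ = z * (x₀⁻¹ * x) := by rw [e]; group
  · exact Subtype.ext (mul_left_cancel (congrArg Subtype.val e))

theorem card_le_cz_mul [DecidableEq G] (s : Finset G) (z : G) :
    s.card ≤ Nat.card (𝐙 z) * (s.image fun x => x * z * x⁻¹).card :=
  Finset.card_le_mul_card_image s _ fun _ _ =>
    card_le_cz_of_conj fun _ hx => (Finset.mem_filter.1 hx).2

theorem cz_conj {a b : G} (h : IsConj a b) : Nat.card (𝐙 a) = Nat.card (𝐙 b) := by
  obtain ⟨c, rfl⟩ := isConj_iff.1 h
  refine Nat.card_congr ⟨fun x => ⟨c * x * c⁻¹, ?_⟩, fun x => ⟨c⁻¹ * x * c, ?_⟩,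
    fun x => by ext; simp [mul_assoc], fun x => by ext; simp [mul_assoc]⟩
  · have := Subgroup.mem_centralizer_singleton_iff.1 x.2
    rw [Subgroup.mem_centralizer_singleton_iff]
    calc c * x * c⁻¹ * (c * a * c⁻¹) = c * (x * a) * c⁻¹ := by group
      _ = _ := by rw [this]; group
  · have := Subgroup.mem_centralizer_singleton_iff.1 x.2
    rw [Subgroup.mem_centralizer_singleton_iff]
    calc c⁻¹ * x * c * a = c⁻¹ * (x * (c * a * c⁻¹)) * c := by group
      _ = _ := by rw [this]; group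

/-- Centralizers do not grow in quotients. -/
theorem cz_map_le {Q : Type*} [Group Q] (f : G →* Q) (hf : Function.Surjective f) (z : G) :
    Nat.card (𝐙 (f z)) ≤ Nat.card (𝐙 z) := by
  classical
  haveI := Fintype.ofFinite G
  have h1 := card_le_cz_mul (((𝐙 (f z)).comap f : Set G).toFinset) z
  have h2 : ((((𝐙 (f z)).comap f : Set G).toFinset).image fun x => x * z * x⁻¹).card ≤
      Nat.card f.ker := by
    rw [← Nat.card_eq_finsetCard]
    refine Nat.card_le_card_of_injective (fun x => (⟨x.1 * z⁻¹, ?_⟩ : f.ker)) fun x y e => ?_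
    · obtain ⟨y, hy, e⟩ := Finset.mem_image.1 x.2
      have hy' := Set.mem_toFinset.1 hy
      have := Subgroup.mem_centralizer_singleton_iff.1 (show f y ∈ 𝐙 (f z) from hy')
      rw [MonoidHom.mem_ker, ← e]
      simp [this]
    · exact Subtype.ext (mul_right_cancel (congrArg Subtype.val e))
  have h3 : (((𝐙 (f z)).comap f : Set G).toFinset).card = Nat.card (𝐙 (f z)) * Nat.card f.ker := by
    rw [← Nat.card_eq_card_toFinset]
    have e1 := ((𝐙 (f z)).comap f).card_mul_index
    have e2 := (𝐙 (f z)).card_mul_index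
    have e3 := f.ker.card_mul_index
    rw [Subgroup.index_comap_of_surjective _ hf] at e1
    rw [Subgroup.index_ker, MonoidHom.range_eq_top.2 hf, Subgroup.card_top] at e3
    haveI : Finite Q := Finite.of_surjective f hf
    refine Nat.eq_of_mul_eq_mul_right (Nat.pos_of_ne_zero (𝐙 (f z)).index_ne_zero_of_finite) ?_
    change Nat.card ((𝐙 (f z)).comap f) * _ = _
    rw [e1, ← e3, ← e2]; ring
  rw [h3] at h1
  exact Nat.le_of_mul_le_mul_right (h1.trans (Nat.mul_le_mul_left _ h2)) Nat.card_pos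

/-- `y`, `z` generate a four-group whose involutions have centralizers of order at most `c`. -/
structure Four (c : ℕ) (y z : G) : Prop where
  yy : y * y = 1
  zz : z * z = 1
  comm : y * z = z * y
  y1 : y ≠ 1
  z1 : z ≠ 1
  yz1 : y * z ≠ 1
  cy : Nat.card (𝐙 y) ≤ c
  cz : Nat.card (𝐙 z) ≤ c
  cyz : Nat.card (𝐙 (y * z)) ≤ c

theorem Four.yzyz {c : ℕ} {y z : G} (h : Four c y z) : y * z * (y * z) = 1 := by
  rw [mul_assoc, ← mul_assoc z, ← h.comm, mul_assoc, h.zz, mul_one, h.yy]

theorem Four.map {c : ℕ} {y z : G} (h : Four c y z) {Q : Type*} [Group Q] (f : G →* Q)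
    (hf : Function.Surjective f) (h1 : f y ≠ 1) (h2 : f z ≠ 1) (h3 : f (y * z) ≠ 1) :
    Four c (f y) (f z) :=
  ⟨by rw [← map_mul, h.yy, map_one], by rw [← map_mul, h.zz, map_one],
    by rw [← map_mul, h.comm, map_mul], h1, h2, by rwa [← map_mul],
    (cz_map_le f hf y).trans h.cy, (cz_map_le f hf z).trans h.cz,
    by rw [← map_mul]; exact (cz_map_le f hf _).trans h.cyz⟩

theorem eq_one_of_mem_odd {O : Subgroup G} (hO : Odd (Nat.card O)) {t : G} (ht : t * t = 1)
    (h : t ∈ O) : t = 1 := by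
  by_contra h1
  have := O.orderOf_dvd_natCard h
  rw [H20.orderOf_two_of ht h1] at this
  exact (Nat.not_even_iff_odd.2 hO) (even_iff_two_dvd.2 this)

theorem Four.card_odd_le {c : ℕ} {y z : G} (h : Four c y z) (O : Subgroup G) [hn : O.Normal]
    (hO : Odd (Nat.card O)) : Nat.card O ≤ c ^ 3 := by
  classical
  haveI := Fintype.ofFinite G
  have h1 := card_le_cz_mul ((O : Set G).toFinset) z
  rw [← Nat.card_eq_card_toFinset] at h1
  set W : Finset G := ((𝐙 y : Subgroup G) : Set G).toFinset.filter fun w => IsConj w (y * z)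
  have h2 : ((O : Set G).toFinset.image fun x => x * z * x⁻¹) ⊆
      W.biUnion fun w => ((𝐙 w : Subgroup G) : Set G).toFinset := by
    intro b hb
    obtain ⟨o, ho, rfl⟩ := Finset.mem_image.1 hb
    have ho : o ∈ O := by simpa using ho
    set b := o * z * o⁻¹ with hb
    have bb : b * b = 1 := by
      calc b * b = o * (z * z) * o⁻¹ := by rw [hb]; group
        _ = 1 := by rw [h.zz]; group
    let π := QuotientGroup.mk' O
    have e1 : π (y * b) = π (y * z) := by
      have : π o = 1 := (QuotientGroup.eq_one_iff o).2 ho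
      simp [hb, this]
    have e2 : orderOf (π (y * z)) = 2 :=
      H20.orderOf_two_of (by rw [← map_mul, h.yzyz, map_one]) fun e =>
        h.yz1 (eq_one_of_mem_odd hO h.yzyz ((QuotientGroup.eq_one_iff _).1 e))
    have he : Even (orderOf (y * b)) :=
      even_iff_two_dvd.2 (e2 ▸ e1 ▸ orderOf_map_dvd π (y * b))
    obtain ⟨o2, c1, c2⟩ := H20.half_pow_spec h.yy bb he
    set w := (y * b) ^ (orderOf (y * b) / 2)
    have ww := H20.mul_self_of_orderOf_two o2
    have e3 : π w = π (y * z) := by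
      have e4 : π w = π (y * z) ^ (orderOf (y * b) / 2) := by rw [← e1, ← map_pow]
      rcases Nat.even_or_odd' (orderOf (y * b) / 2) with ⟨k, hk | hk⟩
      · rw [hk, pow_mul, ← e2, pow_orderOf_eq_one, one_pow] at e4
        exact absurd (eq_one_of_mem_odd hO ww ((QuotientGroup.eq_one_iff _).1 e4))
          (H20.ne_one_of_orderOf_two o2)
      · rwa [hk, pow_succ, pow_mul, ← e2, pow_orderOf_eq_one, one_pow, one_mul] at e4
    have e5 : w * (y * z) ∈ O := (QuotientGroup.eq_one_iff _).1 (by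
      change π _ = 1
      rw [map_mul, e3, ← map_mul, h.yzyz, map_one])
    refine Finset.mem_biUnion.2 ⟨w, Finset.mem_filter.2 ⟨?_, H20.isConj_of_odd_orderOf_mul ww
      h.yzyz (hO.of_dvd_nat (O.orderOf_dvd_natCard e5))⟩, ?_⟩
    · simpa [Subgroup.mem_centralizer_singleton_iff] using c1.eq
    · simpa [Subgroup.mem_centralizer_singleton_iff] using c2.eq.symm
  have h3 : (W.biUnion fun w => ((𝐙 w : Subgroup G) : Set G).toFinset).card ≤ W.card * c :=
    Finset.card_biUnion_le_card_mul _ _ _ fun w hw => by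
      rw [← Nat.card_eq_card_toFinset]
      exact (cz_conj (Finset.mem_filter.1 hw).2).trans_le h.cyz
  have h4 : W.card ≤ c := (Finset.card_filter_le _ _).trans (by
    rw [← Nat.card_eq_card_toFinset]; exact h.cy)
  calc Nat.card O ≤ c * (c * c) := h1.trans (Nat.mul_le_mul h.cz
        ((Finset.card_le_card h2).trans (h3.trans (Nat.mul_le_mul_right _ h4))))
    _ = c ^ 3 := by ring

/-- The Brauer–Fowler count. -/
theorem exists_index_le {z : G} (hz : z * z = 1) {c : ℕ} (hc : Nat.card (𝐙 z) ≤ c) :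
    Nat.card G ≤ c ∨ ∃ x : G, x ≠ 1 ∧ (𝐙 x).index ≤ 2 * c ^ 2 := by
  classical
  haveI := Fintype.ofFinite G
  have h1 := card_le_cz_mul (Finset.univ : Finset G) z
  set S := (Finset.univ : Finset G).image fun x => x * z * x⁻¹
  rw [Finset.card_univ, ← Nat.card_eq_fintype_card] at h1
  by_cases hm : S.card ≤ 1
  · left
    calc Nat.card G ≤ c * 1 := h1.trans (Nat.mul_le_mul hc hm)
      _ = c := mul_one c
  right
  have hS : ∀ a ∈ S, a * a = 1 := fun a ha => by
    obtain ⟨o, -, rfl⟩ := Finset.mem_image.1 ha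
    calc o * z * o⁻¹ * (o * z * o⁻¹) = o * (z * z) * o⁻¹ := by group
      _ = 1 := by rw [hz]; group
  have hne : ∀ ab ∈ S.offDiag, ab.1 * ab.2 ≠ 1 := fun ab hab e => by
    obtain ⟨-, h2, h3⟩ := Finset.mem_offDiag.1 hab
    exact h3 (mul_right_cancel (e.trans (hS _ h2).symm))
  obtain ⟨a, ha, b, hb, hab⟩ := Finset.one_lt_card.1 (not_le.1 hm)
  obtain ⟨x, hx, hmax⟩ := Finset.exists_max_image (Finset.univ.filter fun x : G => x ≠ 1)
    (fun x => Nat.card (𝐙 x)) ⟨a * b, Finset.mem_filter.2 ⟨Finset.mem_univ _,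
      hne (a, b) (Finset.mem_offDiag.2 ⟨ha, hb, hab⟩)⟩⟩
  refine ⟨x, (Finset.mem_filter.1 hx).2, ?_⟩
  have h2 : S.offDiag.card ≤ Nat.card (𝐙 x) * (S.offDiag.image fun ab => ab.1 * ab.2).card := by
    refine Finset.card_le_mul_card_image _ _ fun w hw => ?_
    obtain ⟨ab, hab, rfl⟩ := Finset.mem_image.1 hw
    refine le_trans ?_ (hmax _ (Finset.mem_filter.2 ⟨Finset.mem_univ _, hne ab hab⟩))
    refine le_trans (Finset.card_le_card_of_injOn (t := Finset.univ.filter fun t : G =>
      t * (ab.1 * ab.2) * t⁻¹ = (ab.1 * ab.2)⁻¹) Prod.fst (fun cd hcd => ?_) fun cd hcd ef hef e => ?_)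
      (card_le_cz_of_conj fun t ht => (Finset.mem_filter.1 ht).2)
    · obtain ⟨h3, h4⟩ := Finset.mem_filter.1 (Finset.mem_coe.1 hcd)
      obtain ⟨h5, h6, -⟩ := Finset.mem_offDiag.1 h3
      refine Finset.mem_coe.2 (Finset.mem_filter.2 ⟨Finset.mem_univ _, ?_⟩)
      rw [← h4]
      exact H20.inverts_mul_left (hS _ h5) (hS _ h6)
    · have h3 := (Finset.mem_filter.1 (Finset.mem_coe.1 hcd)).2
      have h4 := (Finset.mem_filter.1 (Finset.mem_coe.1 hef)).2
      exact Prod.ext e (mul_left_cancel (a := cd.1) (by rw [h3, e, h4]))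
  have h3 : (S.offDiag.image fun ab => ab.1 * ab.2).card ≤ Nat.card G := by
    rw [Nat.card_eq_fintype_card]; exact Finset.card_le_univ _
  rw [Finset.offDiag_card] at h2
  have h4 := (𝐙 x).card_mul_index
  have h5 : S.card * S.card ≤ 2 * (Nat.card (𝐙 x) * Nat.card G) := by
    have := h2.trans (Nat.mul_le_mul_left _ h3)
    have h6 : 2 * S.card ≤ S.card * S.card := Nat.mul_le_mul_right _ (by omega)
    omega
  have h6 : Nat.card G * Nat.card G ≤ c ^ 2 * (S.card * S.card) := by
    have := h1.trans (Nat.mul_le_mul_right _ hc)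
    calc _ ≤ c * S.card * (c * S.card) := Nat.mul_le_mul this this
      _ = _ := by ring
  have h7 : (𝐙 x).index * (Nat.card (𝐙 x) * Nat.card G) ≤
      2 * c ^ 2 * (Nat.card (𝐙 x) * Nat.card G) := by
    calc _ = Nat.card G * Nat.card G := by rw [← mul_assoc, mul_comm (𝐙 x).index, h4]
      _ ≤ c ^ 2 * (2 * (Nat.card (𝐙 x) * Nat.card G)) := h6.trans (Nat.mul_le_mul_left _ h5)
      _ = _ := by ring
  exact Nat.le_of_mul_le_mul_right h7 (Nat.mul_pos Nat.card_pos Nat.card_pos)

theorem index_normalCore_le (H : Subgroup G) : H.normalCore.index ≤ H.index.factorial := by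
  classical
  haveI := Fintype.ofFinite (G ⧸ H)
  rw [Subgroup.normalCore_eq_ker, Subgroup.index_ker, Subgroup.index, Nat.card_eq_fintype_card (α := G ⧸ H),
    ← Fintype.card_perm, ← Nat.card_eq_fintype_card]
  exact Subgroup.card_le_card_group _

theorem card_le_of_comm {A : Subgroup G} [A.Normal] (hc : ∀ a ∈ A, ∀ b ∈ A, a * b = b * a)
    (hO : ∀ O : Subgroup G, O.Normal → Odd (Nat.card O) → O = ⊥) :
    Nat.card A ≤ 2 ^ (Nat.card G).factorization 2 := by
  have h1 := Nat.eq_prime_pow_of_unique_prime_dvd (n := Nat.card A) (p := 2) Nat.card_pos.ne'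
    fun {q} hq hd => by
      by_contra hne
      haveI := Fact.mk hq
      obtain ⟨S⟩ : Nonempty (Sylow q A) := inferInstance
      haveI : (S : Subgroup A).Normal := ⟨fun n hn g => by
        rwa [show g * n = n * g from Subtype.ext (hc _ g.2 _ n.2), mul_inv_cancel_right]⟩
      haveI := Sylow.characteristic_of_normal S this
      have h2 := hO ((S : Subgroup A).map A.subtype) inferInstance (by
        rw [Subgroup.card_map_of_injective A.subtype_injective, S.card_eq_multiplicity]
        exact (hq.odd_of_ne_two hne).pow)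
      exact S.ne_bot_of_dvd_card hd ((Subgroup.map_eq_bot_iff_of_injective _
        A.subtype_injective).1 h2)
  rw [h1]
  exact Nat.pow_le_pow_right two_pos ((Nat.prime_two.pow_dvd_iff_le_factorization
    Nat.card_pos.ne').1 (h1 ▸ A.card_subgroup_dvd_card))

theorem exists_max_odd (G : Type*) [Group G] [Finite G] : ∃ O : Subgroup G, ∃ _ : O.Normal,
    Odd (Nat.card O) ∧ ∀ U : Subgroup (G ⧸ O), U.Normal → Odd (Nat.card U) → U = ⊥ := by
  obtain ⟨O, ⟨hn, ho⟩, hmax⟩ := Set.Finite.exists_maximalFor (fun O : Subgroup G => Nat.card O)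
    {O | O.Normal ∧ Odd (Nat.card O)} (Set.toFinite _) ⟨⊥, inferInstance, by simp⟩
  refine ⟨O, hn, ho, fun U hU hodd => ?_⟩
  have e : Nat.card (U.comap (QuotientGroup.mk' O)) = Nat.card U * Nat.card O := by
    have e1 := (U.comap (QuotientGroup.mk' O)).card_mul_index
    have e2 := U.card_mul_index
    have e3 := O.card_mul_index
    rw [Subgroup.index_comap_of_surjective _ (QuotientGroup.mk'_surjective O)] at e1
    refine Nat.eq_of_mul_eq_mul_right (Nat.pos_of_ne_zero U.index_ne_zero_of_finite) ?_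
    rw [e1, ← e3, Subgroup.index, ← e2]; ring
  have h1 := hmax (j := U.comap (QuotientGroup.mk' O)) ⟨hU.comap _, e ▸ hodd.mul ho⟩
    (by simp only [e]; exact Nat.le_mul_of_pos_left _ Nat.card_pos)
  simp only [e] at h1
  have h2 : Nat.card U ≤ 1 :=
    Nat.le_of_mul_le_mul_right (by simpa using h1) (Nat.card_pos (α := O))
  exact Subgroup.card_le_one_iff_eq_bot _ |>.1 h2

end Grp

theorem four_bound (c a : ℕ) : ∃ N : ℕ, ∀ (G : Type u) [Group G] [Finite G] (y z : G),
    (Nat.card G).factorization 2 < a → Four c y z → Nat.card G ≤ N := by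
  induction a with
  | zero => exact ⟨0, fun _ _ _ _ _ h => absurd h (Nat.not_lt_zero _)⟩
  | succ a ih =>
  obtain ⟨N₀, ih⟩ := ih
  set F := (2 * c ^ 2).factorial
  have key : ∀ (G : Type u) [Group G] [Finite G] (y z : G),
      (Nat.card G).factorization 2 < a + 1 → Four c y z →
      (∀ O : Subgroup G, O.Normal → Odd (Nat.card O) → O = ⊥) →
      Nat.card G ≤ c + c * F + 2 ^ a * F * N₀ := by
    intro G _ _ y z ha h hO
    rcases exists_index_le h.zz h.cz with h1 | ⟨x, hx, h1⟩
    · omega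
    set K := (𝐙 x).normalCore
    have hK : K.index ≤ F := (index_normalCore_le _).trans (Nat.factorial_le h1)
    have h2 : ∀ v ∈ 𝐂 K, Nat.card (𝐙 v) ≤ c → Nat.card G ≤ c + c * F + 2 ^ a * F * N₀ := by
      intro v hv hc
      have h3 : K ≤ 𝐙 v := fun k hk => Subgroup.mem_centralizer_singleton_iff.2 (hv k hk)
      have h4 := Nat.mul_le_mul ((Subgroup.card_le_of_le h3).trans hc) hK
      rw [K.card_mul_index] at h4
      omega
    by_cases h3 : y ∈ 𝐂 K
    · exact h2 _ h3 h.cy
    by_cases h4 : z ∈ 𝐂 K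
    · exact h2 _ h4 h.cz
    by_cases h5 : y * z ∈ 𝐂 K
    · exact h2 _ h5 h.cyz
    have hx' : x ∈ 𝐂 K := fun k hk =>
      Subgroup.mem_centralizer_singleton_iff.1 ((𝐙 x).normalCore_le hk)
    have h6 : 2 ∣ Nat.card (𝐂 K) := even_iff_two_dvd.1 (Nat.not_odd_iff_even.1 fun ho =>
      hx (by simpa [hO _ inferInstance ho] using hx'))
    have e := (𝐂 K).card_mul_index
    have h7 : (𝐂 K).index ≤ N₀ := by
      refine ih (G ⧸ 𝐂 K) _ _ ?_ (h.map (QuotientGroup.mk' _) (QuotientGroup.mk'_surjective _)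
        (mt (QuotientGroup.eq_one_iff _).1 h3) (mt (QuotientGroup.eq_one_iff _).1 h4)
        (mt (QuotientGroup.eq_one_iff _).1 h5))
      rw [← e, Nat.factorization_mul Nat.card_pos.ne' (𝐂 K).index_ne_zero_of_finite] at ha
      have := (Nat.prime_two.dvd_iff_one_le_factorization Nat.card_pos.ne').1 h6
      change ((𝐂 K).index).factorization 2 < a
      simp only [Finsupp.coe_add, Pi.add_apply] at ha
      omega
    have h8 : Nat.card (K ⊓ 𝐂 K : Subgroup G) ≤ 2 ^ a :=
      (card_le_of_comm (A := K ⊓ 𝐂 K) (fun s hs t ht => ht.2 s hs.1) hO).trans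
        (Nat.pow_le_pow_right two_pos (by omega))
    have h9 : Nat.card (𝐂 K) ≤ 2 ^ a * F := by
      have e1 := (K.subgroupOf (𝐂 K)).card_mul_index
      have e2 : Nat.card (K.subgroupOf (𝐂 K)) = Nat.card (K ⊓ 𝐂 K : Subgroup G) := by
        rw [← Subgroup.inf_subgroupOf_right]
        exact Nat.card_congr (Subgroup.subgroupOfEquivOfLe inf_le_right).toEquiv
      rw [← e1, e2]
      exact Nat.mul_le_mul h8 ((Nat.le_of_dvd (Nat.pos_of_ne_zero K.index_ne_zero_of_finite)
        (Subgroup.relIndex_dvd_index_of_normal K _)).trans hK)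
    have := Nat.mul_le_mul h9 h7
    omega
  refine ⟨c ^ 3 * (c + c * F + 2 ^ a * F * N₀), fun G _ _ y z ha h => ?_⟩
  obtain ⟨O, hn, ho, hO⟩ := exists_max_odd G
  have e := O.card_mul_index
  have h1 : O.index ≤ c + c * F + 2 ^ a * F * N₀ := by
    refine key (G ⧸ O) _ _ ?_ (h.map (QuotientGroup.mk' _) (QuotientGroup.mk'_surjective _)
        (fun e => h.y1 (eq_one_of_mem_odd ho h.yy ((QuotientGroup.eq_one_iff _).1 e)))
        (fun e => h.z1 (eq_one_of_mem_odd ho h.zz ((QuotientGroup.eq_one_iff _).1 e)))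
        (fun e => h.yz1 (eq_one_of_mem_odd ho h.yzyz ((QuotientGroup.eq_one_iff _).1 e)))) hO
    exact lt_of_le_of_lt ((Nat.factorization_le_iff_dvd O.index_ne_zero_of_finite
      Nat.card_pos.ne').2 O.index_dvd_card 2) ha
  rw [← e]
  exact Nat.mul_le_mul (h.card_odd_le O ho) h1

variable {M : Ideal AlgInt} [hMm : M.IsMaximal] {p : ℕ} [hp : Fact p.Prime] [hM : PMod M p]

variable (M p) in
/-- All non-principal blocks have defect less than `r`. -/
def Defic (G : Type*) [Group G] (r : ℕ) : Prop := ∀ χ : IrrCharacter G, χ ∉ principalBlock M G →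
  (Nat.card G).factorization p < r + (charDegree (χ : G → ℂ)).factorization p

variable {G : Type*} [Group G] [Finite G]

omit hM in
theorem defic_iff {r : ℕ} : Defic M p G r ↔ ∀ B : Set (IrrCharacter G), IsPBlock M B →
    B ≠ principalBlock M G → blockDefect p B < r := by
  constructor
  · intro h B hB hne
    obtain ⟨χ, hχ, e⟩ := Nat.sInf_mem ((block_nonempty hB).image
      fun χ : IrrCharacter G => (charDegree (χ : G → ℂ)).factorization p)
    have h1 := h χ fun h' => hne (block_eq_of_mem hB isPBlock_principalBlock hχ h')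
    have h2 : (charDegree (χ : G → ℂ)).factorization p ≤ (Nat.card G).factorization p :=
      (Nat.factorization_le_iff_dvd (charDegree_irr_ne_zero χ) Nat.card_pos.ne').2
        (charDegree_dvd_card χ) p
    rw [blockDefect, ← e]
    beta_reduce
    omega
  · intro h χ hχ
    have h1 := h _ (isPBlock_blockOf χ) fun e => hχ (e ▸ mem_blockOf_self χ)
    have h2 : sInf ((fun χ : IrrCharacter G => (charDegree (χ : G → ℂ)).factorization p) ''
      blockOf M (χ : G → ℂ)) ≤ _ := Nat.sInf_le ⟨χ, mem_blockOf_self χ, rfl⟩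
    rw [blockDefect] at h1
    beta_reduce at h2
    omega

theorem Defic.centralizer {r : ℕ} (h : Defic M p G r) {x : G} (hx : ∃ k : ℕ, orderOf x = p ^ k) :
    Defic M p (𝐙 x) r := defic_iff.2 fun b hb hne => by
  obtain ⟨B, hB⟩ := inducedBlockDefined_centralizer hM.out hx hb
  exact (blockDefect_le_of_induced hB).trans_lt (defic_iff.1 h B hB.2.1
    (mt (IsInducedBlock.principal_iff hM.out hB).1 hne))

theorem Defic.quot {r : ℕ} (h : Defic M p G (r + 1)) (Z : Subgroup G) [Z.Normal]
    (hZ : Nat.card Z = p) (hc : Z ≤ Subgroup.center G) : Defic M p (G ⧸ Z) r := fun ψ hψ => by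
  have h1 := h (inflIrr _ (QuotientGroup.mk'_surjective Z) ψ) (mt
    (inflIrr_mem_principal_of_central hM.out _ _ (by
      rw [QuotientGroup.ker_mk']; exact IsPGroup.of_card (n := 1) (by simpa using hZ))
      (by rwa [QuotientGroup.ker_mk']) ψ).1 hψ)
  have e : charDegree (inflIrr _ (QuotientGroup.mk'_surjective Z) ψ : G → ℂ) =
      charDegree (ψ : G ⧸ Z → ℂ) :=
    H7.charDegree_eq (by rw [inflIrr_apply, map_one, irr_one_eq])
  rw [e, ← Z.card_mul_index, Nat.factorization_mul Nat.card_pos.ne' Z.index_ne_zero_of_finite,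
    hZ] at h1
  simp only [Finsupp.coe_add, Pi.add_apply, hp.out.factorization_self] at h1
  change Z.index.factorization p < _
  omega

theorem Defic.card_le (h : Defic M p G 0) :
    Nat.card (ConjClasses G) ≤ p ^ (2 * (Nat.card G).factorization p) := by
  have h1 : principalBlock M G = Set.univ := Set.eq_univ_of_forall fun χ => by
    by_contra hχ
    have h1 := h χ hχ
    have h2 : (charDegree (χ : G → ℂ)).factorization p ≤ (Nat.card G).factorization p :=
      (Nat.factorization_le_iff_dvd (charDegree_irr_ne_zero χ) Nat.card_pos.ne').2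
        (charDegree_dvd_card χ) p
    omega
  have h2 := card_principal_le (G := G) hM.out
  rwa [h1, Nat.card_univ, H6.card_irr_eq_card_conjClasses] at h2

theorem defic_bound (a r : ℕ) : ∃ N : ℕ, ∀ (G : Type u) [Group G] [Finite G] (M : Ideal AlgInt)
    [M.IsMaximal] [PMod M 2] (E : Subgroup G), (Nat.card G).factorization 2 ≤ a → Defic M 2 G r →
    (∀ x ∈ E, x * x = 1) → Nat.card E = 2 ^ (r + 1) → Nat.card G ≤ N := by
  induction r with
  | zero =>
    obtain ⟨N, hN⟩ := landau.{u} (2 ^ (2 * a))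
    exact ⟨N, fun G _ _ M _ _ E ha h _ _ => hN G (h.card_le.trans
      (Nat.pow_le_pow_right two_pos (by omega)))⟩
  | succ r ih =>
  obtain ⟨N₀, ih⟩ := ih
  obtain ⟨N, hN⟩ := four_bound.{u} (2 * N₀) (a + 1)
  refine ⟨N, fun G _ _ M _ _ E ha h hE hc => ?_⟩
  have comm : ∀ x ∈ E, ∀ y ∈ E, x * y = y * x := fun x hx y hy => by
    have h1 := hE _ (E.mul_mem hx hy)
    rw [← eq_inv_iff_mul_eq_one, mul_inv_rev, ← eq_inv_iff_mul_eq_one.2 (hE x hx),
      ← eq_inv_iff_mul_eq_one.2 (hE y hy)] at h1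
    exact h1
  have key : ∀ z ∈ E, z ≠ 1 → Nat.card (𝐙 z) ≤ 2 * N₀ := fun z hz h1 => by
    have ho := H20.orderOf_two_of (hE z hz) h1
    have hcz : zpowers (selfC z) ≤ Subgroup.center (𝐙 z) :=
      Subgroup.zpowers_le.2 (Subgroup.mem_center_iff.2 fun g => (selfC_comm z g).symm)
    haveI : (zpowers (selfC z)).Normal := ⟨fun n hn g => by
      rwa [Subgroup.mem_center_iff.1 (hcz hn) g, mul_inv_cancel_right]⟩
    have hZ : Nat.card (zpowers (selfC z)) = 2 := by
      rw [Nat.card_zpowers, ← ho, ← Subgroup.orderOf_coe]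
    have hle : E ≤ 𝐙 z := fun x hx => Subgroup.mem_centralizer_singleton_iff.2 (comm x hx z hz)
    have h2 := ih (𝐙 z ⧸ zpowers (selfC z)) M
      ((E.subgroupOf (𝐙 z)).map (QuotientGroup.mk' _)) ?_
      ((h.centralizer ⟨1, by simpa using ho⟩).quot _ hZ hcz) ?_ ?_
    · rw [← (zpowers (selfC z)).card_mul_index, hZ]
      exact Nat.mul_le_mul_left _ h2
    · exact ((Nat.factorization_le_iff_dvd Nat.card_pos.ne' Nat.card_pos.ne').2
        ((Subgroup.index_dvd_card _).trans (𝐙 z).card_subgroup_dvd_card) 2).trans ha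
    · rintro _ ⟨x, hx, rfl⟩
      rw [← map_mul, show x * x = 1 from Subtype.ext (hE _ hx), map_one]
    · have h3 : zpowers (selfC z) ≤ E.subgroupOf (𝐙 z) := Subgroup.zpowers_le.2 hz
      have e1 := ((zpowers (selfC z)).subgroupOf (E.subgroupOf (𝐙 z))).card_mul_index
      rw [Nat.card_congr (Subgroup.subgroupOfEquivOfLe h3).toEquiv, hZ,
        Nat.card_congr (Subgroup.subgroupOfEquivOfLe hle).toEquiv, hc] at e1
      have e2 := Subgroup.relIndex_ker (E.subgroupOf (𝐙 z))
        (QuotientGroup.mk' (zpowers (selfC z)))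
      rw [QuotientGroup.ker_mk'] at e2
      rw [← e2, Subgroup.relIndex]
      rw [pow_succ 2 (r + 1)] at e1
      omega
  obtain ⟨y, z, hy, hz, hyz⟩ : ∃ y z : E, y ≠ 1 ∧ z ≠ 1 ∧ y ≠ z := by
    haveI := Fintype.ofFinite E
    classical
    have h3 : 1 < ((Finset.univ : Finset E).erase 1).card := by
      rw [Finset.card_erase_of_mem (Finset.mem_univ _), Finset.card_univ, ← Nat.card_eq_fintype_card,
        hc, pow_succ, pow_succ]
      have := Nat.one_le_two_pow (n := r)
      omega
    obtain ⟨y, hy, z, hz, hyz⟩ := Finset.one_lt_card.1 h3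
    exact ⟨y, z, (Finset.mem_erase.1 hy).1, (Finset.mem_erase.1 hz).1, hyz⟩
  have hy' : (y : G) ≠ 1 := fun e => hy (Subtype.ext e)
  have hz' : (z : G) ≠ 1 := fun e => hz (Subtype.ext e)
  have hyz' : (y : G) * z ≠ 1 := fun e =>
    hyz (Subtype.ext (mul_right_cancel (e.trans (hE _ z.2).symm)))
  exact hN G y z (by omega) ⟨hE _ y.2, hE _ z.2, comm _ y.2 _ z.2, hy', hz', hyz', key _ y.2 hy',
    key _ z.2 hz', key _ (E.mul_mem y.2 z.2) hyz'⟩

end Cfsg.Agent.H8
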