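import Cfsg.Agent.H20.Icp1
import Cfsg.Agent.H17.Icp4

/-! S1315: case B of piece p7. -/

set_option autoImplicit false
set_option linter.unusedSectionVars false
set_option linter.unusedVariables false

namespace Cfsg.Agent.H1.Ic

open Subgroup Cfsg.Agent.FT Cfsg.Agent.GW

variable {G : Type*} [Group G] [Finite G] {J J' K D M Q T : Subgroup G} {a b x y : G}

theorem p7B_id {G : Type*} [Group G] {a b x y k : G} (aa : a * a = 1) (bb : b * b = 1) (hab : a * b = b * a)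
    (x2 : x * x = a) (hy : b * x * b⁻¹ = y) (hc : x * y = y * x) (kb : k * b = b * k)
    (hke : k * (x * y) = x * y * k) (hak : a * k * a⁻¹ = k * b) :
    y * y = a ∧ x * y * b = b * (x * y) ∧ a * (x * y) * a = a * (a * (x * y)) ∧
      k * x * b * (k * x)⁻¹ = a * (x * y) ∧ k * x * (b * (x * y)) * (k * x)⁻¹ = a := by
  have bi : b⁻¹ = b := inv_eq_of_mul_eq_one_right bb
  have ai : a⁻¹ = a := inv_eq_of_mul_eq_one_right aa
  have y2 : y * y = a := by
    calc y * y = b * (x * x) * b⁻¹ := by rw [← hy]; group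
      _ = a := by rw [x2, ← hab]; group
  have xa : Commute x a := x2 ▸ (Commute.refl x).mul_right (Commute.refl x)
  have ya : Commute y a := y2 ▸ (Commute.refl y).mul_right (Commute.refl y)
  have ea : Commute (x * y) a := xa.mul_left ya
  have yb : b * y = x * b := by
    calc b * y = (b * b) * x * b⁻¹ := by rw [← hy]; group
      _ = x * b := by rw [bb, one_mul, bi]
  have xb : b * x = y * b := by rw [← hy]; group
  have eb : x * y * b = b * (x * y) := by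
    calc x * y * b = y * (x * b) := by rw [hc]; group
      _ = y * b * y := by rw [← yb]; group
      _ = b * (x * y) := by rw [← xb]; group
  have ee : x * y * (x * y) = 1 := by
    calc x * y * (x * y) = x * (y * x) * y := by group
      _ = (x * x) * (y * y) := by rw [← hc]; group
      _ = 1 := by rw [x2, y2, aa]
  have yi : y⁻¹ = y * a := inv_eq_of_mul_eq_one_right (by rw [← mul_assoc, y2, aa])
  have h1 : x * b * x⁻¹ = x * y * a * b := by
    calc x * b * x⁻¹ = x * (b * x * b⁻¹)⁻¹ * b := by group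
      _ = x * y * a * b := by rw [hy, yi]; group
  have h2 : k * a * k⁻¹ = b * a := by
    have h : a * k * a = k * b := by rw [← hak, ai]
    calc k * a * k⁻¹ = a⁻¹ * (a * k * a) * k⁻¹ := by group
      _ = b * a := by rw [h, kb, ai, ← hab]; group
  have h3 : k * b * k⁻¹ = b := by rw [kb]; group
  have h4 : k * (x * y) * k⁻¹ = x * y := by rw [hke]; group
  have bab : b * a * b = a := by rw [← hab, mul_assoc, bb, mul_one]
  have xe : x * (x * y) * x⁻¹ = x * y := by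
    calc x * (x * y) * x⁻¹ = x * (y * x) * x⁻¹ := by rw [hc]
      _ = x * y := by group
  refine ⟨y2, eb, by rw [mul_assoc, ea.eq], ?_, ?_⟩
  · calc k * x * b * (k * x)⁻¹ = k * (x * b * x⁻¹) * k⁻¹ := by group
      _ = (k * (x * y) * k⁻¹) * ((k * a * k⁻¹) * (k * b * k⁻¹)) := by rw [h1]; group
      _ = a * (x * y) := by rw [h2, h3, h4, bab, ea.eq]
  · calc k * x * (b * (x * y)) * (k * x)⁻¹ = k * (x * b * x⁻¹ * (x * (x * y) * x⁻¹)) * k⁻¹ := by group
      _ = k * (x * y * a * (b * (x * y))) * k⁻¹ := by rw [h1, xe]; group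
      _ = k * (a * (x * y * (x * y)) * b) * k⁻¹ := by rw [← eb, ea.eq]; group
      _ = (k * a * k⁻¹) * (k * b * k⁻¹) := by rw [ee]; group
      _ = a := by rw [h2, h3, bab]

theorem p7B {k : G} (hJ : Ic J a) (hK : Ic K b) (hab : a * b = b * a) (hn : b ∉ N(J)) (hx : x ∈ J)
    (x2 : x * x = a) (hc : x * (b * x * b⁻¹) = b * x * b⁻¹ * x) (hk : k ∈ K)
    (hke : k * (x * (b * x * b⁻¹)) = x * (b * x * b⁻¹) * k) (hak : a * k * a⁻¹ = k * b)
    (he : ⁅K, ⟪x * (b * x * b⁻¹)⟫⁆ ≤ O[{2}ᶜ](K)) : False := by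
  have oa : orderOf a = 2 := hJ.inv
  have ob : orderOf b = 2 := hK.inv
  have aa : a * a = 1 := by rw [← pow_two, ← oa, pow_orderOf_eq_one]
  have bb : b * b = 1 := by rw [← pow_two, ← ob, pow_orderOf_eq_one]
  have a1 : a ≠ 1 := fun e => by rw [e, orderOf_one] at oa; omega
  have bM : b ∈ C[a] := mem_cen1.2 hab.symm
  have hJ' := hJ.pc.cj_of_mem bM
  have hne : J ≠ cj b J := fun e => hn (cj_eq_self.1 e.symm)
  have yJ : b * x * b⁻¹ ∈ cj b J := conj_mem_cj.2 hx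
  obtain ⟨y2, eb, ea, g1, g2⟩ := p7B_id aa bb hab x2 rfl hc (mem_cen1.1 (hK.pc.le hk)) hke hak
  generalize b * x * b⁻¹ = y at *
  have c1 : y ∈ cenMod 2 C[a] J :=
    hJ.pc.le_cenMod.2 ⟨hJ'.le, (hJ.pc.comm_of_ne hJ' hne).trans inf_le_left⟩ yJ
  have px : PiElt {2} x := piElt_of_pow_eq_one (n := 2 ^ 2) (piNat_self_pow Nat.prime_two 2)
    (by rw [show (2 : ℕ) ^ 2 = 2 * 2 by norm_num, pow_mul, pow_two, pow_two, x2, aa])
  have c2 : x ∉ cenMod 2 C[a] J := fun h =>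
    a1 (x2 ▸ p4a hJ hx px (hJ.pc.le_cenMod.1 (zpowers_le.2 h)).2)
  have hK' := hK.cj (k * x)
  rw [g1] at hK'
  have b1 : b ∈ cenMod 2 C[b] K := hK.pc.le_cenMod.2 ⟨zpowers_le.2 (mem_cen1.2 rfl), by
    rw [comm_eq_bot.2 (cen_zpowers b ▸ hK.pc.le)]; exact bot_le⟩ (mem_zpowers b)
  have e1 : x * y ∈ cenMod 2 C[b] K := hK.pc.le_cenMod.2 ⟨zpowers_le.2 (mem_cen1.2 eb), he⟩ (mem_zpowers _)
  have c3 := (hK.pc.le_cenMod.1 (zpowers_le.2 (mul_mem b1 e1))).2
  have c4 : ⁅cj (k * x) K, ⟪a⟫⁆ ≤ O[{2}ᶜ](cj (k * x) K) := by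
    have := cj_mono (k * x) c3
    rwa [cj_comm, cj_zpowers, g2, cj_pcore] at this
  have hD := (hK'.pc.cent_cover hJ.inv.pGrp c4).1
  rw [cen_zpowers, inf_comm C[a * (x * y)]] at hD
  have m : a * (x * y) ∈ piGen {2} (cj (k * x) K ⊓ C[a]) := mem_piGen ⟨hK'.mem, mem_cen1.2 ea⟩ hK'.inv.pElt
  have aeN : a * (x * y) ∈ N(J) :=
    mul_mem (le_nrm J hJ.mem) (mul_mem (le_nrm J hx) (hJ'.norms_pcomp hJ.pc yJ))
  rcases p1 hJ.pc hK'.inv (mem_cen1.2 ea) aeN hD with h | h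
  · have h1 : x * y = 1 := mul_eq_left.1 (hJ.uniq _ (h m) hK'.inv)
    exact c2 (eq_inv_of_mul_eq_one_left h1 ▸ inv_mem c1)
  · have h1 : a * (x * y) ∈ cenMod 2 C[a] J := hJ.pc.le_cenMod.2 ⟨hD.le.trans inf_le_left, h⟩ m
    have h2 : a ∈ cenMod 2 C[a] J := by have := mul_mem c1 c1; rwa [y2] at this
    exact c2 ((mul_mem_cancel_right c1).1 ((mul_mem_cancel_left h2).1 h1))

end Cfsg.Agent.H1.Ic
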