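import Mathlib
import Cfsg.Agent.H8.Prin2
import Cfsg.Agent.H9.Mod1

/-!
Direct summands of permutation modules of `p`-groups; blocks of minimal dimension.
-/

set_option autoImplicit false

namespace Cfsg.Agent.H8

open Cfsg MonoidAlgebra H9 Module
open Cfsg.Agent.H7 (ip)
open Subgroup (zpowers)

local notation:max "𝐂 " Q:max => Subgroup.centralizer (SetLike.coe Q)
local notation:max "𝐍 " Q:max => Subgroup.normalizer (SetLike.coe Q)
local notation:max "𝐙 " x:max => Subgroup.centralizer (Singleton.singleton x : Set _)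

section Perm
variable {k : Type*} [Field k] {Γ Ω : Type*} [Group Γ] [MulAction Γ Ω] [Fintype Ω] [DecidableEq Ω]

variable (k Γ Ω) in
/-- The endomorphism algebra of a permutation module. -/
def eqv : Subalgebra k (Matrix Ω Ω k) where
  carrier := {m | ∀ (γ : Γ) a c, m (γ • a) (γ • c) = m a c}
  mul_mem' {m n} hm hn γ a c := by
    rw [Matrix.mul_apply, Matrix.mul_apply]
    exact (Fintype.sum_equiv (MulAction.toPerm γ) _ _ fun w => by simp [hm γ, hn γ]).symm
  add_mem' {m n} hm hn γ a c := by simp [hm γ, hn γ]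
  algebraMap_mem' r γ a c := by simp [Matrix.algebraMap_matrix_apply]

open Classical in
variable (k Γ) in
/-- The projection onto an orbit. -/
noncomputable def orbP (w : Ω) : Matrix Ω Ω k :=
  Matrix.diagonal fun a => if a ∈ MulAction.orbit Γ w then 1 else 0

theorem orbP_mem (w : Ω) : orbP k Γ w ∈ eqv k Γ Ω := fun γ a c => by
  simp only [orbP, Matrix.diagonal_apply, MulAction.injective γ |>.eq_iff]
  have : γ • a ∈ MulAction.orbit Γ w ↔ a ∈ MulAction.orbit Γ w := by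
    rw [← MulAction.orbit_eq_iff, MulAction.orbit_smul, MulAction.orbit_eq_iff]
  by_cases h : a ∈ MulAction.orbit Γ w
  · rw [if_pos h, if_pos (this.2 h)]
  · rw [if_neg h, if_neg (mt this.1 h)]

theorem orbP_idem (w : Ω) : orbP k Γ w * orbP k Γ w = orbP k Γ w := by
  rw [orbP, Matrix.diagonal_mul_diagonal]
  congr 1
  ext a
  split_ifs <;> simp

theorem orbP_mul_apply {w a : Ω} (m : Matrix Ω Ω k) (c : Ω) [Decidable (a ∈ MulAction.orbit Γ w)] :
    (orbP k Γ w * m) a c = if a ∈ MulAction.orbit Γ w then m a c else 0 := by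
  rw [orbP, Matrix.diagonal_mul]
  split_ifs <;> simp

theorem mul_orbP_apply {w c : Ω} (m : Matrix Ω Ω k) (a : Ω) [Decidable (c ∈ MulAction.orbit Γ w)] :
    (m * orbP k Γ w) a c = if c ∈ MulAction.orbit Γ w then m a c else 0 := by
  rw [orbP, Matrix.mul_diagonal]
  split_ifs <;> simp

theorem sum_orbP [Fintype (MulAction.orbitRel.Quotient Γ Ω)] :
    ∑ q : MulAction.orbitRel.Quotient Γ Ω, orbP k Γ q.out = 1 := by
  ext a c
  rw [Matrix.sum_apply, Finset.sum_eq_single (Quotient.mk _ a) (fun q _ hq => ?_) (by simp)]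
  · rw [orbP, Matrix.diagonal_apply, Matrix.one_apply, if_pos (MulAction.orbitRel_apply.1
      (Quotient.exact (Quotient.out_eq (s := MulAction.orbitRel Γ Ω) _).symm))]
  · rw [orbP, Matrix.diagonal_apply, ite_eq_right_iff]
    refine fun _ => if_neg fun h => hq ?_
    exact (Quotient.out_eq q).symm.trans (Quotient.sound (MulAction.orbitRel_apply.2 h)).symm

theorem rank_orbP (w : Ω) : (orbP k Γ w).rank = Nat.card (MulAction.orbit Γ w) := by
  classical
  rw [orbP, Matrix.rank_diagonal, ← Nat.card_eq_fintype_card]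
  exact Nat.card_congr (Equiv.subtypeEquivRight fun a => by simp)

variable {p : ℕ} [Fact p.Prime] [CharP k p] [Finite Γ] (hΓ : IsPGroup p Γ)
include hΓ

theorem mulVec_orb {w : Ω} {f : Matrix Ω Ω k} (hf : f ∈ eqv k Γ Ω) (hff : f * f = f)
    (h1 : orbP k Γ w * f = f) (h0 : f ≠ 0) : f.mulVec (orbP k Γ w).diag = (orbP k Γ w).diag := by
  classical
  let ρ : Γ →* Module.End k (Ω → k) :=
    { toFun γ := LinearMap.funLeft k k fun a => γ⁻¹ • a
      map_one' := by ext; simp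
      map_mul' γ δ := by ext; simp [mul_smul] }
  obtain ⟨c, hc⟩ : ∃ c, f.col c ≠ 0 := by
    by_contra h
    push Not at h
    exact h0 (Matrix.ext fun a c => congrFun (h c) a)
  obtain ⟨v, hv, hv0, h2⟩ := exists_fixed_vec ρ (hΓ.to_subgroup ⊤)
    (LinearMap.ker (f.mulVecLin - LinearMap.id)) (fun γ _ v hv => by
      simp only [LinearMap.mem_ker, LinearMap.sub_apply, Matrix.mulVecLin_apply, LinearMap.id_apply,
        sub_eq_zero] at hv ⊢
      ext a
      change ∑ c, f a c * v (γ⁻¹ • c) = v (γ⁻¹ • a)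
      rw [← congrFun hv (γ⁻¹ • a)]
      exact Fintype.sum_equiv (MulAction.toPerm γ⁻¹) _ _ fun c => by simp [hf γ⁻¹])
    (v₀ := f.col c) (by
      simp only [LinearMap.mem_ker, LinearMap.sub_apply, Matrix.mulVecLin_apply, LinearMap.id_apply,
        sub_eq_zero]
      ext a
      exact congrFun (congrFun hff a) c) hc
  simp only [LinearMap.mem_ker, LinearMap.sub_apply, Matrix.mulVecLin_apply, LinearMap.id_apply,
    sub_eq_zero] at hv
  have h3 : v = v w • (orbP k Γ w).diag := by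
    ext a
    simp only [orbP, Matrix.diag_diagonal, Pi.smul_apply, smul_eq_mul]
    split_ifs with h
    · obtain ⟨γ, rfl⟩ := h
      have := congrFun (h2 γ trivial) (γ • w)
      simpa [ρ] using this.symm
    · rw [← hv, ← h1, ← Matrix.mulVec_mulVec, orbP, Matrix.mulVec_diagonal, if_neg h, zero_mul,
        mul_zero]
  have h4 : v w ≠ 0 := fun e => hv0 (by rw [h3, e, zero_smul])
  rw [h3, Matrix.mulVec_smul] at hv
  exact smul_right_injective _ h4 hv

theorem eq_orbP {w : Ω} {f : Matrix Ω Ω k} (hf : f ∈ eqv k Γ Ω) (hff : f * f = f)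
    (h1 : orbP k Γ w * f = f) (h2 : f * orbP k Γ w = f) (h0 : f ≠ 0) : f = orbP k Γ w := by
  by_contra hne
  have h3 := mulVec_orb hΓ (w := w) ((eqv k Γ Ω).sub_mem (orbP_mem w) hf)
    (by rw [sub_mul, mul_sub, mul_sub, orbP_idem, h1, h2, hff, sub_self, sub_zero])
    (by rw [mul_sub, orbP_idem, h1]) (sub_ne_zero.2 (Ne.symm hne))
  rw [Matrix.sub_mulVec, mulVec_orb hΓ hf hff h1 h0, mulVec_orb hΓ (orbP_mem w) (orbP_idem w)
    (orbP_idem w) fun e => h0 (by rw [← h1, e, zero_mul]), sub_self] at h3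
  have := congrFun h3 w
  simp [orbP, MulAction.mem_orbit_self] at this

/-- An indecomposable summand of a permutation module of a `p`-group is a transitive
permutation module. -/
theorem PrimI.exists_orbP {ε : Matrix Ω Ω k} (hε : PrimI (eqv k Γ Ω) ε) :
    ∃ w, ∃ x ∈ eqv k Γ Ω, ∃ y ∈ eqv k Γ Ω, x * orbP k Γ w * y = ε ∧ y * ε * x = orbP k Γ w := by
  classical
  haveI := Fintype.ofFinite (MulAction.orbitRel.Quotient Γ Ω)
  obtain ⟨w, hw⟩ : ∃ w, ¬ IsNilpotent (ε * orbP k Γ w * ε) := by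
    by_contra h
    push Not at h
    refine hε.not_nil ?_
    have h1 : ∀ s : Finset (MulAction.orbitRel.Quotient Γ Ω),
        Cor (eqv k Γ Ω) ε (∑ q ∈ s, ε * orbP k Γ q.out * ε) ∧
          IsNilpotent (∑ q ∈ s, ε * orbP k Γ q.out * ε) := fun s => by
      induction s using Finset.induction_on with
      | empty => exact ⟨by simpa using cor_zero ε, by simp⟩
      | insert q s hq ih =>
        rw [Finset.sum_insert hq]
        have := cor_mul hε.mem hε.idem (orbP_mem (k := k) (Γ := Γ) q.out)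
        exact ⟨this.add ih.1, hε.nil_add this ih.1 (h _) ih.2⟩
    have h2 := (h1 Finset.univ).2
    rwa [← Finset.sum_mul, ← Finset.mul_sum, sum_orbP, mul_one, hε.idem] at h2
  obtain ⟨z, hz, -, h2⟩ := (hε.nil_or_inv (cor_mul hε.mem hε.idem (orbP_mem w))).resolve_left hw
  rw [mul_assoc, hz.2.1] at h2
  have ho := orbP_idem (k := k) (Γ := Γ) w
  refine ⟨w, ε * orbP k Γ w, mul_mem hε.mem (orbP_mem w), orbP k Γ w * z,
    mul_mem (orbP_mem w) hz.1, by rw [mul_assoc ε, ho, ← mul_assoc, mul_assoc ε, ho, h2],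
    eq_orbP hΓ (mul_mem (mul_mem (mul_mem (orbP_mem w) hz.1) hε.mem) (mul_mem hε.mem (orbP_mem w)))
      ?_ (by simp only [← mul_assoc, ho]) (by simp only [mul_assoc, ho]) fun h0 => hε.ne_zero ?_⟩
  · calc _ = orbP k Γ w * z * ε * (ε * (orbP k Γ w * orbP k Γ w) * z) * ε * (ε * orbP k Γ w) := by
          simp only [mul_assoc]
      _ = _ := by rw [ho, h2, mul_assoc _ ε ε, hε.idem, mul_assoc _ ε ε, hε.idem]
  · calc ε = ε * orbP k Γ w * z * ε * (ε * orbP k Γ w * z) := by rw [h2, hε.idem, hε.idem]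
      _ = ε * (orbP k Γ w * z * ε * (ε * orbP k Γ w)) * z := by simp only [mul_assoc]
      _ = 0 := by rw [h0, mul_zero, zero_mul]

theorem exists_fixed_of_mul_ne (K : Subgroup Γ) {x y : Matrix Ω Ω k} (hx : x ∈ eqv k Γ Ω)
    (hy : y ∈ eqv k Γ Ω) {a c : Ω} (ha : ∀ γ ∈ K, γ • a = a) (hc : ∀ γ ∈ K, γ • c = c)
    (h : (x * y) a c ≠ 0) : ∃ w, (∀ γ ∈ K, γ • w = w) ∧ x a w ≠ 0 ∧ y w c ≠ 0 := by
  classical
  rw [Matrix.mul_apply, sum_eq_sum_fixed (hΓ.to_subgroup K) _ fun u w => by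
    rw [← hx u a w, ← hy u w c, ha _ u.2, hc _ u.2]; rfl] at h
  obtain ⟨w, hw, h1⟩ := Finset.exists_ne_zero_of_sum_ne_zero h
  exact ⟨w, fun γ hγ => (Finset.mem_filter.1 hw).2 ⟨γ, hγ⟩, mul_ne_zero_iff.1 h1⟩

/-- A summand of minimal rank is a transitive permutation module. -/
theorem exists_orbit_of_rank {π : Matrix Ω Ω k} (hπ : π ∈ eqv k Γ Ω) (hππ : π * π = π)
    (h0 : π ≠ 0) {n : ℕ} (hn : ∀ (K : Subgroup Γ) (a c : Ω), (∀ γ ∈ K, γ • a = a) →
      (∀ γ ∈ K, γ • c = c) → π a c ≠ 0 → Nat.card K ≤ n) (hr : π.rank * n ≤ Nat.card Γ) :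
    ∃ w : Ω, Nat.card (MulAction.stabilizer Γ w) ≤ n ∧ ∀ (K : Subgroup Γ) (a c : Ω),
      (∀ γ ∈ K, γ • a = a) → (∀ γ ∈ K, γ • c = c) → π a c ≠ 0 →
      ∃ v ∈ MulAction.orbit Γ w, ∀ γ ∈ K, γ • v = v := by
  classical
  obtain ⟨E, hE⟩ := exists_decomp hπ hππ
  obtain ⟨ε, hε⟩ : E.Nonempty := Finset.nonempty_iff_ne_empty.2 fun e => h0 (by
    rw [← hE.2.2, e, Finset.sum_empty])
  obtain ⟨w, x, hx, y, hy, h1, h2⟩ := (hE.1 ε hε).exists_orbP hΓ
  have h3 : Nat.card (MulAction.stabilizer Γ w) ≤ n := by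
    have h3 : (y * (π * (ε * x))) w w ≠ 0 := by
      rw [← mul_assoc π, hE.mul_eq hε, ← mul_assoc, h2]
      simp [orbP, MulAction.mem_orbit_self]
    have h4 := mul_mem (hE.1 ε hε).mem hx
    obtain ⟨a, ha, -, h5⟩ := exists_fixed_of_mul_ne hΓ (MulAction.stabilizer Γ w) hy
      (mul_mem hπ h4) (fun _ h => h) (fun _ h => h) h3
    obtain ⟨c, hc, h6, -⟩ := exists_fixed_of_mul_ne hΓ (MulAction.stabilizer Γ w) hπ h4 ha
      (fun _ h => h) h5
    exact hn _ a c ha hc h6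
  have h4 : π.rank ≤ ε.rank := by
    have h4 : Nat.card (MulAction.orbit Γ w) ≤ ε.rank := by
      rw [← rank_orbP (k := k), ← h2]
      exact (Matrix.rank_mul_le_left _ _).trans (Matrix.rank_mul_le_right _ _)
    have h5 := (MulAction.stabilizer Γ w).card_mul_index
    rw [MulAction.index_stabilizer, ← Nat.card_coe_set_eq] at h5
    have h6 : 0 < n := Nat.card_pos.trans_le h3
    refine Nat.le_of_mul_le_mul_right (hr.trans ?_) h6
    rw [← h5, mul_comm]
    exact Nat.mul_le_mul h4 h3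
  have h5 : π = ε := by
    have h5 : LinearMap.range ε.mulVecLin = LinearMap.range π.mulVecLin :=
      Submodule.eq_of_le_of_finrank_le (by
        rw [← hE.mul_eq hε, Matrix.mulVecLin_mul]; exact LinearMap.range_comp_le_range _ _) h4
    rw [← hE.eq_mul hε]
    ext a c
    obtain ⟨v, hv⟩ : π.col c ∈ LinearMap.range ε.mulVecLin :=
      h5 ▸ ⟨Pi.single c 1, by simp⟩
    have h6 : ε.mulVec (π.col c) = π.col c := by
      rw [← hv, Matrix.mulVecLin_apply, Matrix.mulVec_mulVec, (hE.1 ε hε).idem]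
    exact (congrFun h6 a).symm
  refine ⟨w, h3, fun K a c ha hc h => ?_⟩
  rw [h5, ← h1] at h
  obtain ⟨v, hv, h6, -⟩ := exists_fixed_of_mul_ne hΓ K (mul_mem hx (orbP_mem w)) hy ha hc h
  rw [mul_orbP_apply] at h6
  exact ⟨v, by by_contra h7; exact h6 (if_neg h7), hv⟩

end Perm

variable {M : Ideal AlgInt} [hMm : M.IsMaximal] {G : Type*} [Group G] [Finite G]
variable {p : ℕ} [hp : Fact p.Prime] [hM : PMod M p]

omit hp hM in
theorem finrank_block {B : Set (IrrCharacter G)} (hB : IsBlockUnion M B) :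
    finrank (resField M) (LinearMap.range (sand (R := resField M) 1 (eB M B))) =
      ∑ χ ∈ bs B, charDegree (χ : G → ℂ) ^ 2 := by
  classical
  refine Nat.cast_injective (R := ℂ) ?_
  have h := finrank_sand (y := 1) (y' := fB M B) (mul_one _) (fB_mul_self hB)
  rw [map_one, red_fB, map_one, ← blockPart_projChar hB (fB_mul_self hB), blockPart_eq_bs,
    chiL_sum (bs B) _ _ _ (fun g => Finset.sum_apply _ _ _)] at h
  rw [h, Nat.cast_sum]
  refine Finset.sum_congr rfl fun χ hχ => ?_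
  rw [ip_projChar _ (irr_isChar χ), up_fB hB, chiL_eq_omega, omega_fC_of_mem (mem_bs.1 hχ),
    chiL_one, irr_one_eq]
  push_cast; ring

/-- Linckelmann: a block of minimal dimension is nilpotent. -/
theorem isNil_of_dim {B : Set (IrrCharacter G)} (hB : IsPBlock M B)
    (h : (∑ χ ∈ bs B, charDegree (χ : G → ℂ) ^ 2) * p ^ blockDefect p B ≤
      p ^ (2 * (Nat.card G).factorization p)) : IsNil p ⊤ (eB M B) := by
  classical
  intro Q _ f hf g hg hgp
  haveI := Fintype.ofFinite G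
  obtain ⟨D, hD, hQD⟩ := (br_eB_ne_zero_iff' hM.out hB hf.1.isP).1 hf.br_ne
  obtain ⟨S, hS⟩ := (IsDefectGroup.isP hD).exists_le_sylow
  letI : MulAction (S × S) G :=
    { smul st x := st.1 * x * (st.2 : G)⁻¹
      one_smul x := by change (1 : G) * x * 1⁻¹ = x; simp
      mul_smul s t x := by
        change (s.1 * t.1 : G) * x * (s.2 * t.2 : G)⁻¹ = s.1 * (t.1 * x * (t.2 : G)⁻¹) * (s.2 : G)⁻¹
        group }
  have hs : ∀ (st : S × S) (x : G), st • x = st.1 * x * (st.2 : G)⁻¹ := fun _ _ => rfl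
  have hz := mem_Zen_iff.1 (eB_mem_Zen (M := M) B)
  let π := LinearMap.toMatrix (MonoidAlgebra.basis G (resField M)) (MonoidAlgebra.basis G _)
    (sand (R := resField M) 1 (eB M B))
  have hπ : ∀ a c, π a c = (eB M B).coeff (a * c⁻¹) := fun a c => by
    rw [← hz c⁻¹]
    refine (LinearMap.toMatrix_apply _ _ _ _ _).trans ?_
    change (1 * (single c 1 * eB M B)).coeff a = _
    rw [one_mul, coeff_single_mul_apply, one_mul]
    congr 1; group
  have hcS : Nat.card S = p ^ (Nat.card G).factorization p := S.card_eq_multiplicity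
  have hSS : IsPGroup p (S × S) := IsPGroup.of_card (by rw [Nat.card_prod, hcS, ← pow_add])
  have hfix : ∀ (K : Subgroup (S × S)) (a c : G), (∀ γ ∈ K, γ • a = a) → (∀ γ ∈ K, γ • c = c) →
      a * c⁻¹ ∈ 𝐂 (K.map (S.1.subtype.comp (MonoidHom.fst _ _))) := by
    rintro K a c ha hc _ ⟨γ, hγ, rfl⟩
    have h1 := ha γ hγ
    have h2 := hc γ hγ
    rw [hs] at h1 h2
    change γ.1 * (a * c⁻¹) = a * c⁻¹ * γ.1
    calc γ.1 * (a * c⁻¹) = (γ.1 * a * (γ.2 : G)⁻¹) * (γ.1 * c * (γ.2 : G)⁻¹)⁻¹ * γ.1 := by group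
      _ = _ := by rw [h1, h2]
  obtain ⟨w, hw, hK⟩ := exists_orbit_of_rank (Γ := S × S) hSS (π := π)
    (fun γ a c => by rw [hπ, hπ, hs, hs, ← hz γ.1 (a * c⁻¹)]; congr 1; group)
    (by rw [← LinearMap.toMatrix_mul, sand_idem (mul_one _)
      (eB_mul_self (isBlockUnion_of_block hB))])
    (fun e => eB_ne_zero hB (ga_ext fun x => by simpa [e] using (hπ x 1).symm))
    (n := p ^ blockDefect p B) (fun K a c ha hc hne => by
      rw [hπ] at hne
      obtain ⟨x, hx⟩ := (br_eB_ne_zero_iff hM.out hB hD ((hSS.to_subgroup K).map _)).1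
        (br_eB_ne_zero_iff_coeff.2 ⟨_, hne, _, IsConj.refl _, hfix K a c ha hc⟩)
      rw [← card_defectGroup hM.out hB hD]
      refine le_trans ?_ ((card_cg x _).ge.trans (Subgroup.card_le_of_le hx))
      refine Nat.card_le_card_of_injective (fun γ => ⟨_, γ.1, γ.2, rfl⟩) fun γ δ e => ?_
      have e1 : (γ.1.1 : G) = δ.1.1 := by simpa using e
      have h1 := (ha _ γ.2).trans (ha _ δ.2).symm
      rw [hs, hs, e1, mul_right_inj, inv_inj] at h1
      exact Subtype.ext (Prod.ext (Subtype.ext e1) (Subtype.ext h1)))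
    (by rw [Matrix.rank_eq_finrank_range_toLin π (MonoidAlgebra.basis G _)
      (MonoidAlgebra.basis G _), Matrix.toLin_toMatrix, finrank_block (isBlockUnion_of_block hB),
      Nat.card_prod, hcS, ← pow_add, ← two_mul]; exact h)
  have hgQ : ∀ u ∈ Q, g * u * g⁻¹ ∈ Q := fun u hu =>
    (Subgroup.mem_normalizer_iff.1 (mem_pstab.1 hg).2.1 u).1 hu
  have key : ∀ (R : Subgroup G) (x : G), R ≤ D → (∀ u ∈ R, x * u * x⁻¹ ∈ R) →
      ∃ v ∈ MulAction.orbit (S × S) w, ∀ u ∈ R, x * u * x⁻¹ = v * u * v⁻¹ := by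
    intro R x hR hx
    obtain ⟨z, hz0, hzR⟩ : ∃ z, (eB M B).coeff z ≠ 0 ∧ z ∈ 𝐂 R := by
      obtain ⟨z, h1, c, h2, h3⟩ := br_eB_ne_zero_iff_coeff.1 ((br_eB_ne_zero_iff' hM.out hB
        ((IsDefectGroup.isP hD).to_le hR)).2 ⟨D, hD, hR⟩)
      obtain ⟨t, rfl⟩ := isConj_iff.1 h2
      exact ⟨_, by rwa [hz], h3⟩
    let K : Subgroup (S × S) := R.comap (S.1.subtype.comp (MonoidHom.snd _ _)) ⊓
      MulAction.stabilizer _ x
    have hfx : ∀ γ ∈ K, γ • (z * x) = z * x := fun γ hγ => by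
      have h2 : γ.1 * x * (γ.2 : G)⁻¹ = x := hγ.2
      have h3 : (γ.1 : G) ∈ R := by
        have := hx γ.2 hγ.1
        rwa [show x * γ.2 * x⁻¹ = γ.1 by rw [mul_inv_eq_iff_eq_mul, ← mul_inv_eq_iff_eq_mul.1 h2]]
          at this
      rw [hs, ← mul_assoc, hzR _ h3, mul_assoc z, mul_assoc z, h2]
    obtain ⟨v, hv, h1⟩ := hK K (z * x) x hfx (fun γ hγ => hγ.2)
      (by rwa [hπ, mul_inv_cancel_right])
    refine ⟨v, hv, fun u hu => ?_⟩
    have h2 := h1 (⟨_, hS (hR (hx u hu))⟩, ⟨u, hS (hR hu)⟩) ⟨hu, by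
      change x * u * x⁻¹ * x * u⁻¹ = x; group⟩
    rw [hs] at h2
    rw [eq_mul_inv_iff_mul_eq, ← mul_inv_eq_iff_eq_mul]
    exact h2
  obtain ⟨v₀, hv₀, h0⟩ := key D 1 le_rfl (by simp)
  obtain ⟨v₁, hv₁, h1⟩ := key Q g hQD hgQ
  obtain ⟨γ, rfl⟩ : v₁ ∈ MulAction.orbit (S × S) v₀ := by
    rwa [MulAction.orbit_eq_iff.2 hv₀]
  have h2 : ∀ δ ∈ MulAction.stabilizer (S × S) v₀, δ.1 = δ.2 := by
    let φ : D →* S × S := (Subgroup.inclusion hS).prod (Subgroup.inclusion hS)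
    have h2 : φ.range = MulAction.stabilizer (S × S) v₀ := by
      refine Subgroup.eq_of_le_of_card_ge ?_ ?_
      · rintro _ ⟨d, rfl⟩
        change d * v₀ * (d : G)⁻¹ = v₀
        have := h0 d d.2
        rw [one_mul, inv_one, mul_one] at this
        rw [mul_inv_eq_iff_eq_mul, ← eq_mul_inv_iff_mul_eq]
        exact this
      · obtain ⟨δ, rfl⟩ := hv₀
        rw [← Nat.card_congr (MulAction.stabilizerEquivStabilizer (g := δ) (a := w) rfl).toEquiv,
          ← Nat.card_congr (MonoidHom.ofInjective (f := φ) fun a b e =>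
            Subgroup.inclusion_injective hS (congrArg Prod.fst e)).toEquiv,
          card_defectGroup hM.out hB hD]
        exact hw
    rw [← h2]
    rintro _ ⟨d, rfl⟩
    rfl
  have h3 : ∀ u ∈ Q, g * u * g⁻¹ = (γ.1 * (γ.2 : G)⁻¹) * u * (γ.1 * (γ.2 : G)⁻¹)⁻¹ := fun u hu => by
    have h3 := h1 u hu
    simp only [hs] at h3
    have h4 := congrArg Subtype.val (h2 (γ.1⁻¹ * ⟨_, hS (hQD (hgQ u hu))⟩ * γ.1,
      γ.2⁻¹ * ⟨u, hS (hQD hu)⟩ * γ.2) (by
        change (γ.1 : G)⁻¹ * (g * u * g⁻¹) * γ.1 * v₀ * ((γ.2 : G)⁻¹ * u * γ.2)⁻¹ = v₀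
        rw [h3]; group))
    change (γ.1 : G)⁻¹ * (g * u * g⁻¹) * γ.1 = (γ.2 : G)⁻¹ * u * γ.2 at h4
    calc g * u * g⁻¹ = γ.1 * ((γ.1 : G)⁻¹ * (g * u * g⁻¹) * γ.1) * (γ.1 : G)⁻¹ := by group
      _ = _ := by rw [h4]; group
  obtain ⟨n, hn⟩ := S.2 (γ.1 * γ.2⁻¹)
  have h4 : ∀ m : ℕ, ∀ u ∈ Q, g ^ m * u * (g ^ m)⁻¹ =
      (γ.1 * (γ.2 : G)⁻¹) ^ m * u * ((γ.1 * (γ.2 : G)⁻¹) ^ m)⁻¹ := fun m => by
    induction m with
    | zero => simp
    | succ m ih =>
      intro u hu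
      calc g ^ (m + 1) * u * (g ^ (m + 1))⁻¹ = g ^ m * (g * u * g⁻¹) * (g ^ m)⁻¹ := by group
        _ = _ := by
          rw [ih _ (hgQ u hu), h3 u hu]
          generalize γ.1 * (γ.2 : G)⁻¹ = t
          group
  refine mem_of_pElt_of_pReg (k := n) (fun u hu => ?_) hgp
  have h5 := h4 (p ^ n) u hu
  rw [show (γ.1 * (γ.2 : G)⁻¹) ^ p ^ n = 1 from congrArg Subtype.val hn] at h5
  rw [mul_inv_eq_iff_eq_mul.1 h5]; simp

end Cfsg.Agent.H8
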